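import Cfsg.Agent.FrameSix90.Transport
import Cfsg.Agent.OrthSmall.SixPlus
import Cfsg.Agent.Eq.Def_GeometricClasses

/-!
The normaliser in `SL₄(p)` of a group of symplectic type with centre of order four is maximal.
-/

set_option autoImplicit false

namespace CfsgLib.SLFour90

open Matrix CfsgLib.OrthSmall
open CfsgLib.Classical.PrimeDerangement (Sympl.Data Sympl.data_of)

theorem c6_maximal {F : Type*} [Field F] [Fintype F] (p : ℕ) (R : Subgroup (GL (Fin 4) F)) (hp : p.Prime)
    (hF : Fintype.card F = p) (h4 : p % 4 = 1) (hR : Cfsg.Geo.IsLinearSymplecticTypeData 2 R) :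
    Cfsg.Geo.IsMaximalIn (Cfsg.Geo.specialLinear (Fin 4) F)
      (Cfsg.Geo.subgroupNormalizer R ⊓ Cfsg.Geo.specialLinear (Fin 4) F) := by
  classical
  obtain ⟨hs, hirr, ⟨_, _, _, _, hcases⟩⟩ := hR
  have hZ : Nat.card (Subgroup.center R) = 4 := by
    rcases hcases with ⟨hodd, -⟩ | ⟨-, -, h, -⟩ | ⟨-, -, h, -⟩
    · exact absurd hodd (by decide)
    · exact h
    · simp at h
  have hD := CfsgLib.Classical.PrimeDerangement.Sympl.data_of hs hirr
  have hodd : Odd (Fintype.card F) := by rw [hF, Nat.odd_iff]; omega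
  have h2 : (2 : F) ≠ 0 := CfsgLib.SL2.two_ne_zero_iff_odd.2 hodd
  have hrange : (Matrix.SpecialLinearGroup.toGL : Matrix.SpecialLinearGroup (Fin 4) F →* GL (Fin 4) F).range =
      Cfsg.Geo.specialLinear (Fin 4) F := by
    ext g
    constructor
    · rintro ⟨s, rfl⟩
      exact Units.ext s.2
    · intro hg
      exact ⟨⟨g.val, congrArg Units.val hg⟩, Units.ext rfl⟩
  obtain ⟨w, -, i, hi, -⟩ := FrameSix90.exists_root_neg_one hD hZ
  have hRS : R ≤ Cfsg.Geo.specialLinear (Fin 4) F := fun g hg => Units.ext (FrameSix90.det_eq_one h2 hD hi hg)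
  rw [← hrange] at hRS ⊢
  refine FrameSix90.symplecticType_four_isMaximal (Q := Cfsg.quadFormPlus 3 F)
    (CfsgLib.Classical.Orth.isNondegQF_quadFormPlus 3) (hF ▸ hp) h2 (by simp) h2
    (CfsgLib.Classical.Linear.commutator_sl_eq_top_of_three_le (by simp))
    (Nat.card_congr (pomega_six_plus_equiv (F := F)).some.toEquiv).symm
    Matrix.SpecialLinearGroup.toGL (fun a b h => Subtype.ext (congrArg Units.val h))
    ((Cfsg.isometryGroup F (Cfsg.quadFormPlus 3 F)).subtype.comp kleinHom)
    ?_ (fun s => ?_) R hD hRS (FrameSix90.card_eq_sixtyfour hD hirr hZ) hZ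
  · rintro _ ⟨s, rfl⟩; exact (kleinHom s).2
  · constructor
    · intro h
      exact FrameSix90.eq_sign_of_klein (congrArg Units.val h)
    · intro h
      exact Units.ext (FrameSix90.klein_sign h)

end CfsgLib.SLFour90
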