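import Cfsg.Agent.SLGeo91.MonoFixSix

/-!
Overgroups of the diagonal matrices of determinant one in dimension four over at least seven
elements: a non-monomial element yields one fixing an axis, or its transpose-inverse does.
-/

set_option autoImplicit false

namespace CfsgLib.SLFour90.MonoFixFour

open Matrix CfsgLib.TransvGL CfsgLib.MonoBasics
open CfsgLib.SLGeo91.MonoFixSix (dual dual_dual dual_apply col_eq' isMono_dual isMono_of_dual dual_dg
  not_rows_prop conj_torPair_apply exists_outside)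

variable {ι : Type} [Fintype ι] [DecidableEq ι] {F : Type*} [Field F]

local notation "ax" i:max => (Pi.single i (1 : F) : ι → F)

theorem exists_scalar [Fintype F] (hq : 7 ≤ Fintype.card F) :
    ∃ ε : Fˣ, (ε : F) ^ 2 ≠ 1 ∧ (ε : F) ^ 3 ≠ 1 ∧ (ε : F) ^ 4 ≠ 1 := by
  classical
  obtain ⟨ε, hε⟩ := IsCyclic.exists_ofOrder_eq_natCard (α := Fˣ)
  have hc : Nat.card Fˣ = Fintype.card F - 1 := by
    rw [Nat.card_eq_fintype_card, Fintype.card_units]
  refine ⟨ε, fun e => ?_, fun e => ?_, fun e => ?_⟩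
  all_goals
    have h1 : ε ^ _ = 1 := Units.ext (by rw [Units.val_pow_eq_pow_val, Units.val_one]; exact e)
    have h2 := Nat.le_of_dvd (by norm_num) (orderOf_dvd_of_pow_eq_one h1)
    omega

variable {M : Subgroup (GL ι F)}

section

variable (hT : ∀ d : ι → Fˣ, ∏ i, d i = 1 → dg d ∈ M)
  (hU : ∀ h : GL ι F, h ∈ M →
    (∃ a b : ι, (h : Matrix ι ι F) *ᵥ (Pi.single a (1 : F) : ι → F) ∈
      Submodule.span F {(Pi.single b (1 : F) : ι → F)}) → IsMono h)
  {ε : Fˣ} (hε2 : (ε : F) ^ 2 ≠ 1) (hε3 : (ε : F) ^ 3 ≠ 1) (hε4 : (ε : F) ^ 4 ≠ 1)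

include hT hU hε2 hε3 hε4

/-- Two zeros never occur in a column. -/
theorem not_two_zeros {g : GL ι F} (hgM : g ∈ M) (hg : ¬ IsMono g) (a : ι) {k l : ι} (hkl : k ≠ l)
    (hk : (g : Matrix ι ι F) k a = 0) (hl : (g : Matrix ι ι F) l a = 0) : False := by
  rw [← col_eq'] at hk hl
  set d := dg (torPair k l ε) with hd
  set A := g⁻¹ * d * g with hA
  have hAv : ∀ x, (A : Matrix ι ι F) *ᵥ x =
      ((g⁻¹ : GL ι F) : Matrix ι ι F) *ᵥ ((d : Matrix ι ι F) *ᵥ ((g : Matrix ι ι F) *ᵥ x)) := fun x => by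
    rw [hA, Units.val_mul, Units.val_mul, ← mulVec_mulVec, ← mulVec_mulVec]
  have hgA : ∀ x, (g : Matrix ι ι F) *ᵥ ((A : Matrix ι ι F) *ᵥ x) =
      (d : Matrix ι ι F) *ᵥ ((g : Matrix ι ι F) *ᵥ x) := fun x => by rw [hAv, mulVec_inv_mulVec]
  have hAM : A ∈ M := M.mul_mem (M.mul_mem (M.inv_mem hgM) (hT _ (prod_torPair hkl ε))) hgM
  have hdco : ∀ (x : ι → F) p, ((d : Matrix ι ι F) *ᵥ x) p =
      (if p = k then (ε : F) else if p = l then (ε : F)⁻¹ else 1) * x p := fun x p => by
    rw [hd, dg_mulVec]; unfold torPair; split_ifs <;> simp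
  have hAa : (A : Matrix ι ι F) *ᵥ ax a = ax a := by
    rw [hAv]
    have : (d : Matrix ι ι F) *ᵥ ((g : Matrix ι ι F) *ᵥ ax a) = (g : Matrix ι ι F) *ᵥ ax a := by
      funext p
      rw [hdco]
      split_ifs with h1 h2
      · rw [h1, hk, mul_zero]
      · rw [h2, hl, mul_zero]
      · rw [one_mul]
    rw [this, inv_mulVec_mulVec]
  have hAmono : IsMono A := hU A hAM ⟨a, a, by rw [hAa]; exact Submodule.mem_span_singleton_self _⟩
  choose π hπ using hAmono
  have hinj := mono_index_injective hπ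
  have hc' : ∀ j, ∃ c : F, c • ax (π j) = (A : Matrix ι ι F) *ᵥ ax j := fun j =>
    Submodule.mem_span_singleton.1 (hπ j)
  choose c hc using hc'
  have hc0 : ∀ j, c j ≠ 0 := fun j e =>
    mulVec_ne_zero A (ax_ne_zero j) (by rw [← hc, e, zero_smul])
  have hcol : ∀ i b, (g : Matrix ι ι F) *ᵥ ax i ∉ Submodule.span F {ax b} := fun i b h =>
    hg (hU g hgM ⟨i, b, h⟩)
  have hε0 : (ε : F) ≠ 0 := ε.ne_zero
  have hne1 : (ε : F) ≠ 1 := fun e => hε2 (by rw [e, one_pow])
  have hinv1 : (ε : F)⁻¹ ≠ 1 := fun e => hne1 (inv_eq_one.1 e)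
  have hεinv : (ε : F) ≠ (ε : F)⁻¹ := fun e => hε2 (by
    rw [sq]; nth_rewrite 2 [e]; exact mul_inv_cancel₀ hε0)
  -- some index moves
  obtain ⟨i, hi⟩ : ∃ i, π i ≠ i := by
    by_contra hfix
    push Not at hfix
    have hcoord : ∀ i p, ((if p = k then (ε : F) else if p = l then (ε : F)⁻¹ else 1) - c i) *
        ((g : Matrix ι ι F) *ᵥ ax i) p = 0 := fun i p => by
      have h1 := hgA (ax i)
      rw [← hc i, hfix i, mulVec_smul] at h1
      have h2 := congrFun h1 p
      rw [hdco] at h2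
      simp only [Pi.smul_apply, smul_eq_mul] at h2
      linear_combination -h2
    obtain ⟨i, hik⟩ : ∃ i, ((g : Matrix ι ι F) *ᵥ ax i) k ≠ 0 := by
      by_contra hall
      push Not at hall
      have hz : ∀ x, ((g : Matrix ι ι F) *ᵥ x) k = 0 := fun x => by
        conv_lhs => rw [← Finset.univ_sum_single x]
        rw [Matrix.mulVec_sum, Finset.sum_apply]
        refine Finset.sum_eq_zero fun i _ => ?_
        rw [show Pi.single i (x i) = x i • ax i by simp [← Pi.single_smul'], mulVec_smul,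
          Pi.smul_apply, hall i, smul_zero]
      have := hz (((g⁻¹ : GL ι F) : Matrix ι ι F) *ᵥ ax k)
      rw [mulVec_inv_mulVec] at this
      simp at this
    have hck : c i = ε := by
      have := hcoord i k
      rw [if_pos rfl] at this
      exact (sub_eq_zero.1 ((mul_eq_zero.1 this).resolve_right hik)).symm
    refine hcol i k (mem_axis_iff.2 fun p hp => ?_)
    have := hcoord i p
    rw [if_neg hp, hck, mul_eq_zero] at this
    refine this.resolve_left ?_
    split_ifs
    · exact sub_ne_zero.2 hεinv.symm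
    · exact sub_ne_zero.2 hne1.symm
  set σ : F := 1 + ε + (ε : F)⁻¹ with hσ
  have hcube : ∀ x, (A : Matrix ι ι F) *ᵥ ((A : Matrix ι ι F) *ᵥ ((A : Matrix ι ι F) *ᵥ x)) -
      σ • (A : Matrix ι ι F) *ᵥ ((A : Matrix ι ι F) *ᵥ x) + σ • (A : Matrix ι ι F) *ᵥ x - x = 0 := by
    intro x
    have h1 : (g : Matrix ι ι F) *ᵥ ((A : Matrix ι ι F) *ᵥ ((A : Matrix ι ι F) *ᵥ ((A : Matrix ι ι F) *ᵥ x)) -
        σ • (A : Matrix ι ι F) *ᵥ ((A : Matrix ι ι F) *ᵥ x) + σ • (A : Matrix ι ι F) *ᵥ x - x) = 0 := by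
      simp only [mulVec_sub, mulVec_add, mulVec_smul, hgA]
      funext p
      simp only [Pi.sub_apply, Pi.add_apply, Pi.smul_apply, smul_eq_mul, hdco, Pi.zero_apply, hσ]
      split_ifs <;> field_simp <;> ring
    have h2 := congrArg (((g⁻¹ : GL ι F) : Matrix ι ι F) *ᵥ ·) h1
    simpa only [inv_mulVec_mulVec, mulVec_zero] using h2
  have h3 := hcube (ax i)
  simp only [← hc, mulVec_smul, smul_smul] at h3
  set j := π i with hj
  have hjj : π j ≠ j := fun e => hi (hinj e)
  have key : π j = i := by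
    by_contra hji
    have e1 := congrFun h3 j
    have n3 : π (π j) ≠ j := fun e => hji (hinj e)
    simp [Ne.symm hjj, Ne.symm n3, hi] at e1
    rcases e1 with e | e
    · refine hε3 ?_
      have e' : 1 + (ε : F) + (ε : F)⁻¹ = 0 := e
      field_simp at e'
      linear_combination ((ε : F) - 1) * e'
    · exact hc0 i e
  rw [key, ← hj] at h3
  have ei := congrFun h3 i
  have ej := congrFun h3 j
  simp [Ne.symm hi, hi] at ei ej
  have hσ2 : σ ^ 2 = 1 := by
    have hji : c i * c j = -σ → σ ^ 2 = 1 := fun e => by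
      linear_combination ei + σ * e
    apply hji
    have e' : c i * (c j * c i + σ) = 0 := by linear_combination ej
    linear_combination (mul_eq_zero.1 e').resolve_left (hc0 i)
  have hσ1 : σ = 1 := by
    rcases sq_eq_one_iff.1 hσ2 with h | h
    · exact h
    · exfalso
      refine hε2 ?_
      rw [hσ] at h
      field_simp at h
      have e : ((ε : F) + 1) ^ 2 = 0 := by linear_combination h
      have := (pow_eq_zero_iff two_ne_zero).1 e
      linear_combination ((ε : F) - 1) * this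
  have hεsq : (ε : F) ^ 2 = -1 := by
    rw [hσ] at hσ1
    field_simp at hσ1
    linear_combination hσ1
  exact hε4 (by linear_combination ((ε : F) ^ 2 - 1) * hεsq)

/-- A row of a non-monomial element has at most one zero. -/
theorem row_zero_of (hUd : ∀ h : GL ι F, h ∈ M.comap (dual (ι := ι) (F := F)) →
    (∃ a b : ι, (h : Matrix ι ι F) *ᵥ (Pi.single a (1 : F) : ι → F) ∈
      Submodule.span F {(Pi.single b (1 : F) : ι → F)}) → IsMono h)
    {g : GL ι F} (hgM : g ∈ M) (hg : ¬ IsMono g) (k : ι) {a b : ι}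
    (ha : (g : Matrix ι ι F) k a = 0) (hb : (g : Matrix ι ι F) k b = 0) : a = b := by
  by_contra hab
  have hTd : ∀ d : ι → Fˣ, ∏ i, d i = 1 → dg d ∈ M.comap (dual (ι := ι) (F := F)) := fun d hd => by
    rw [Subgroup.mem_comap, dual_dg]
    exact hT _ (by rw [Finset.prod_inv_distrib, hd, inv_one])
  refine not_two_zeros (M := M.comap (dual (ι := ι) (F := F))) hTd hUd hε2 hε3 hε4 (g := dual g⁻¹)
    (by rw [Subgroup.mem_comap, dual_dual]; exact M.inv_mem hgM)
    (fun e => hg (inv_inv g ▸ (isMono_of_dual e).inv)) k hab ?_ ?_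
  all_goals rw [dual_apply, inv_inv, transpose_apply]; assumption

/-- A non-monomial element has no zero at all. -/
theorem no_zero (hn : Fintype.card ι = 4) (hUd : ∀ h : GL ι F, h ∈ M.comap (dual (ι := ι) (F := F)) →
    (∃ a b : ι, (h : Matrix ι ι F) *ᵥ (Pi.single a (1 : F) : ι → F) ∈
      Submodule.span F {(Pi.single b (1 : F) : ι → F)}) → IsMono h)
    {g : GL ι F} (hgM : g ∈ M) (hg : ¬ IsMono g) (z a : ι) : (g : Matrix ι ι F) z a ≠ 0 := by
  intro hza
  set U : Matrix ι ι F := ((g⁻¹ : GL ι F) : Matrix ι ι F) with hUdef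
  let d : ι → Fˣ := fun i => if i = z then ε⁻¹ ^ 3 else ε
  have hd : ∏ i, d i = 1 := by
    rw [← Finset.mul_prod_erase _ _ (Finset.mem_univ z), Finset.prod_congr rfl
      fun r hr => (show d r = ε from if_neg (Finset.ne_of_mem_erase hr)), Finset.prod_const,
      Finset.card_erase_of_mem (Finset.mem_univ z), Finset.card_univ, hn]
    simp [d, inv_pow]
  set A := g⁻¹ * dg d * g with hA
  set μ : F := ((ε⁻¹ ^ 3 : Fˣ) : F) - ε with hμdef
  have hμ : μ ≠ 0 := by
    rw [hμdef, sub_ne_zero]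
    intro e
    refine hε4 ?_
    have e' : (ε⁻¹ ^ 3 : Fˣ) = ε := Units.ext e
    have : ε ^ 4 = 1 := by
      calc ε ^ 4 = ε ^ 3 * ε := pow_succ _ _
        _ = ε ^ 3 * ε⁻¹ ^ 3 := by rw [e']
        _ = 1 := by rw [inv_pow, mul_inv_cancel]
    simpa using congrArg Units.val this
  have hAij : ∀ i j, (A : Matrix ι ι F) i j =
      (ε : F) * (1 : Matrix ι ι F) i j + μ * (U i z * (g : Matrix ι ι F) z j) := by
    intro i j
    have hdx : ∀ x : ι → F, (dg d : Matrix ι ι F) *ᵥ x = (ε : F) • x + (μ * x z) • ax z := fun x =>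
      funext fun r => by
        rw [dg_mulVec]
        by_cases hr : r = z
        · subst hr; simp [d, hμdef]; ring
        · simp [d, hr]
    rw [← col_eq' A, hA, Units.val_mul, Units.val_mul, ← mulVec_mulVec, ← mulVec_mulVec, hdx,
      mulVec_add, mulVec_smul, mulVec_smul, inv_mulVec_mulVec]
    simp only [Pi.add_apply, Pi.smul_apply, smul_eq_mul, col_eq', Matrix.one_apply, Pi.single_apply, hUdef]
    ring
  have hAM : A ∈ M := M.mul_mem (M.mul_mem (M.inv_mem hgM) (hT d hd)) hgM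
  have hAmono : IsMono A := hU A hAM ⟨a, a, mem_axis_iff.2 fun r hr => by
    rw [col_eq', hAij, hza, Matrix.one_apply_ne hr]; ring⟩
  obtain ⟨i, hi⟩ : ∃ i, U i z ≠ 0 := by
    by_contra hc
    push Not at hc
    refine mulVec_ne_zero (g⁻¹) (ax_ne_zero z) (funext fun r => ?_)
    rw [col_eq']; exact hc r
  obtain ⟨j₁, hj₁⟩ := exists_outside ({i, a} : Finset ι) (Finset.card_le_two.trans_lt (by omega))
  obtain ⟨j₂, hj₂⟩ := exists_outside ({i, a, j₁} : Finset ι) (Finset.card_le_three.trans_lt (by omega))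
  simp only [Finset.mem_insert, Finset.mem_singleton, not_or] at hj₁ hj₂
  choose π hπ using hAmono
  have key : ∀ j, j ≠ i → j ≠ a → π j = i := by
    intro j hji hja
    by_contra hne
    have h1 := mem_axis_iff.1 (hπ j) i (Ne.symm hne)
    rw [col_eq', hAij, Matrix.one_apply_ne (Ne.symm hji), mul_zero, zero_add] at h1
    rcases mul_eq_zero.1 ((mul_eq_zero.1 h1).resolve_left hμ) with h | h
    · exact hi h
    · exact hja (row_zero_of hT hU hε2 hε3 hε4 hUd hgM hg z h hza)
  exact hj₂.2.2 (mono_index_injective hπ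
    ((key j₂ hj₂.1 hj₂.2.1).trans (key j₁ hj₁.1 hj₁.2).symm))

/-- The columns are permuted by the diagonal signs. -/
theorem exists_sign_column (hn : Fintype.card ι = 4)
    (hUd : ∀ h : GL ι F, h ∈ M.comap (dual (ι := ι) (F := F)) →
    (∃ a b : ι, (h : Matrix ι ι F) *ᵥ (Pi.single a (1 : F) : ι → F) ∈
      Submodule.span F {(Pi.single b (1 : F) : ι → F)}) → IsMono h)
    {g : GL ι F} (hgM : g ∈ M) (hg : ¬ IsMono g) {k l : ι} (hkl : k ≠ l) (m : ι) :
    (-1 : F) ≠ 1 ∧ ∃ (m' : ι) (c : F), m' ≠ m ∧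
      ((dg (torPair k l (-1 : Fˣ)) : GL ι F) : Matrix ι ι F) *ᵥ ((g : Matrix ι ι F) *ᵥ ax m) =
        c • ((g : Matrix ι ι F) *ᵥ ax m') := by
  have hG := no_zero hT hU hε2 hε3 hε4 hn hUd hgM hg
  have hUn := no_zero hT hU hε2 hε3 hε4 hn hUd (M.inv_mem hgM) fun h => hg (inv_inv g ▸ h.inv)
  obtain ⟨a, b, hab, hne⟩ : ∃ a b, a ≠ b ∧ ((g⁻¹ : GL ι F) : Matrix ι ι F) a k * (g : Matrix ι ι F) k b
      ≠ ((g⁻¹ : GL ι F) : Matrix ι ι F) a l * (g : Matrix ι ι F) l b := by
    by_contra hc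
    push Not at hc
    refine not_rows_prop g hkl (c := (g : Matrix ι ι F) l k) (d := -(g : Matrix ι ι F) k k)
      (hG l k) fun p => ?_
    obtain ⟨a, ha⟩ := exists_outside ({p, k} : Finset ι) (Finset.card_le_two.trans_lt (by omega))
    simp only [Finset.mem_insert, Finset.mem_singleton, not_or] at ha
    refine (mul_eq_zero.1 (show ((g⁻¹ : GL ι F) : Matrix ι ι F) a k *
      ((g : Matrix ι ι F) l k * (g : Matrix ι ι F) k p
        + -(g : Matrix ι ι F) k k * (g : Matrix ι ι F) l p) = 0 by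
      linear_combination (g : Matrix ι ι F) l k * hc a p ha.1
        - (g : Matrix ι ι F) l p * hc a k ha.2)).resolve_left (hUn a k)
  set α := ((g⁻¹ : GL ι F) : Matrix ι ι F) a k * (g : Matrix ι ι F) k b with hα'
  set β := ((g⁻¹ : GL ι F) : Matrix ι ι F) a l * (g : Matrix ι ι F) l b with hβ'
  have hα : α ≠ 0 := mul_ne_zero (hUn a k) (hG k b)
  have hβ : β ≠ 0 := mul_ne_zero (hUn a l) (hG l b)
  let δ : Fˣ := Units.mk0 (β / α) (div_ne_zero hβ hα)
  have hδ : (δ : F) ≠ 1 := fun e => hne ((div_eq_one_iff_eq hα).1 e).symm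
  set d := dg (torPair k l δ) with hd
  set A := g⁻¹ * d * g with hAdef
  have hAz : (A : Matrix ι ι F) a b = 0 := by
    rw [hAdef, hd, conj_torPair_apply g hkl, Matrix.one_apply_ne hab, zero_add]
    rw [← hα', ← hβ']
    simp only [δ, Units.val_mk0, inv_div]
    field_simp
    ring
  have hAm : IsMono A := by_contra fun h => no_zero hT hU hε2 hε3 hε4 hn hUd
    (M.mul_mem (M.mul_mem (M.inv_mem hgM) (hT _ (prod_torPair hkl δ))) hgM) h a b hAz
  choose π hπ using hAm
  have hinj := mono_index_injective hπ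
  choose c hc using fun j => Submodule.mem_span_singleton.1 (hπ j)
  have hstep : ∀ j, (d : Matrix ι ι F) *ᵥ ((g : Matrix ι ι F) *ᵥ ax j) =
      c j • ((g : Matrix ι ι F) *ᵥ ax (π j)) := fun j => by
    rw [← mulVec_smul, hc, hAdef, Units.val_mul, Units.val_mul, ← mulVec_mulVec, ← mulVec_mulVec,
      mulVec_inv_mulVec]
  obtain ⟨p, hp⟩ := exists_outside ({k, l} : Finset ι) (Finset.card_le_two.trans_lt (by omega))
  simp only [Finset.mem_insert, Finset.mem_singleton, not_or] at hp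
  have hdk : ∀ x : ι → F, ((d : Matrix ι ι F) *ᵥ x) k = δ * x k := fun x => by
    rw [hd, dg_mulVec]; simp [torPair]
  have hdp : ∀ x : ι → F, ((d : Matrix ι ι F) *ᵥ x) p = x p := fun x => by
    rw [hd, dg_mulVec]; simp [torPair, hp.1, hp.2]
  have hfix : ∀ j, π j ≠ j := fun j e => by
    have h1 := congrFun (hstep j) k
    have h2 := congrFun (hstep j) p
    rw [e, Pi.smul_apply, smul_eq_mul] at h1 h2
    rw [hdk, col_eq'] at h1
    rw [hdp, col_eq'] at h2
    have h3 : (c j - 1) * (g : Matrix ι ι F) p j = 0 := by linear_combination -h2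
    have h4 : ((δ : F) - c j) * (g : Matrix ι ι F) k j = 0 := by linear_combination h1
    have e1 := (mul_eq_zero.1 h3).resolve_right (hG p j)
    have e2 := (mul_eq_zero.1 h4).resolve_right (hG k j)
    exact hδ (by linear_combination e2 + e1)
  have hsame : ∀ (j j' : ι) (s : F), (g : Matrix ι ι F) *ᵥ ax j = s • ((g : Matrix ι ι F) *ᵥ ax j') → j = j' := by
    intro j j' s e
    rw [← mulVec_smul] at e
    have h1 := congrFun (congrArg (((g⁻¹ : GL ι F) : Matrix ι ι F) *ᵥ ·) e) j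
    simp only [inv_mulVec_mulVec, Pi.single_eq_same, Pi.smul_apply, smul_eq_mul] at h1
    by_contra hjj
    rw [Pi.single_eq_of_ne hjj, mul_zero] at h1
    exact one_ne_zero h1
  have hstep2 : (d : Matrix ι ι F) *ᵥ ((d : Matrix ι ι F) *ᵥ ((g : Matrix ι ι F) *ᵥ ax m)) =
      (c m * c (π m)) • ((g : Matrix ι ι F) *ᵥ ax (π (π m))) := by
    rw [hstep, mulVec_smul, hstep, smul_smul]
  by_cases hπ2 : π (π m) = m
  · have hk := congrFun hstep2 k
    have hp' := congrFun hstep2 p
    rw [hπ2, Pi.smul_apply, smul_eq_mul] at hk hp'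
    rw [hdk, hdk, col_eq'] at hk
    rw [hdp, hdp, col_eq'] at hp'
    have h3 : (c m * c (π m) - 1) * (g : Matrix ι ι F) p m = 0 := by linear_combination -hp'
    have h4 : ((δ : F) * δ - c m * c (π m)) * (g : Matrix ι ι F) k m = 0 := by linear_combination hk
    have e1 := (mul_eq_zero.1 h3).resolve_right (hG p m)
    have e2 := (mul_eq_zero.1 h4).resolve_right (hG k m)
    have hδ1 : (δ : F) = -1 :=
      (mul_self_eq_one_iff.1 (by linear_combination e2 + e1)).resolve_left hδ
    have hδu : δ = -1 := Units.ext (by rw [hδ1, Units.val_neg, Units.val_one])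
    exact ⟨hδ1 ▸ hδ, π m, c m, hfix m, by rw [← hδu, ← hd]; exact hstep m⟩
  · have hfour : π (π (π (π m))) = m := by
      have key : ∀ f : Fin 4 → Fin 4, Function.Injective f → (∀ x, f x ≠ x) →
          ∀ x, f (f x) ≠ x → f (f (f (f x))) = x := by decide +kernel
      let e := Fintype.equivFinOfCardEq hn
      have := key (e ∘ π ∘ e.symm) (e.injective.comp (hinj.comp e.symm.injective))
        (fun x h => hfix (e.symm x) (e.injective (by simpa using h))) (e m)
        (fun h => hπ2 (e.injective (by simpa using h)))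
      exact e.injective (by simpa using this)
    have hstep4 : (d : Matrix ι ι F) *ᵥ ((d : Matrix ι ι F) *ᵥ ((d : Matrix ι ι F) *ᵥ ((d : Matrix ι ι F) *ᵥ
        ((g : Matrix ι ι F) *ᵥ ax m)))) =
        (c m * c (π m) * c (π (π m)) * c (π (π (π m)))) • ((g : Matrix ι ι F) *ᵥ ax m) := by
      rw [hstep2, mulVec_smul, hstep, smul_smul, mulVec_smul, hstep, smul_smul, hfour]
    have hk := congrFun hstep4 k
    have hp' := congrFun hstep4 p
    rw [Pi.smul_apply, smul_eq_mul] at hk hp'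
    rw [hdk, hdk, hdk, hdk, col_eq'] at hk
    rw [hdp, hdp, hdp, hdp, col_eq'] at hp'
    set C := c m * c (π m) * c (π (π m)) * c (π (π (π m)))
    have h3 : (C - 1) * (g : Matrix ι ι F) p m = 0 := by linear_combination -hp'
    have h4 : (((δ : F) * δ) * ((δ : F) * δ) - C) * (g : Matrix ι ι F) k m = 0 := by
      linear_combination hk
    have e1 := (mul_eq_zero.1 h3).resolve_right (hG p m)
    have e2 := (mul_eq_zero.1 h4).resolve_right (hG k m)
    have hdd : d * d = dg (torPair k l (δ * δ)) := ext_mulVec fun x => funext fun i => by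
      rw [Units.val_mul, ← mulVec_mulVec, hd, dg_mulVec, dg_mulVec, dg_mulVec]
      rcases eq_or_ne i k with rfl | hik
      · simp [torPair]; ring
      rcases eq_or_ne i l with rfl | hil
      · simp [torPair, Ne.symm hkl]; ring
      · simp [torPair, hik, hil]
    have hne1 : (δ : F) * δ ≠ 1 := fun e => by
      have h1 : δ * δ = 1 := Units.ext (by rw [Units.val_mul, Units.val_one]; exact e)
      have h2 : d * d = 1 := ext_mulVec fun x => funext fun i => by
        rw [hdd, h1, dg_mulVec, Units.val_one, one_mulVec]; simp [torPair]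
      refine hπ2 (hsame m _ (c m * c (π m)) ?_).symm
      rw [← hstep2, mulVec_mulVec _ (d : Matrix ι ι F) (d : Matrix ι ι F), ← Units.val_mul, h2,
        Units.val_one, one_mulVec]
    have hneg : (δ : F) * δ = -1 :=
      (mul_self_eq_one_iff.1 (by linear_combination e2 + e1)).resolve_left hne1
    have hδu : δ * δ = -1 := Units.ext (by rw [Units.val_mul, hneg, Units.val_neg, Units.val_one])
    refine ⟨hneg ▸ hne1, π (π m), c m * c (π m), hπ2, ?_⟩
    rw [← hδu, ← hdd, Units.val_mul, ← mulVec_mulVec]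
    exact hstep2

end

/-- A non-monomial element fixing an axis, in `M` or in its dual. -/
theorem exists_fix_or_dual [Fintype F] (hn : Fintype.card ι = 4) (hq : 7 ≤ Fintype.card F)
    (hT : ∀ d : ι → Fˣ, ∏ i, d i = 1 → dg d ∈ M) {g : GL ι F} (hgM : g ∈ M) (hg : ¬ IsMono g) :
    (∃ h ∈ M, ¬ IsMono h ∧ ∃ a b, (h : Matrix ι ι F) *ᵥ ax a ∈ Submodule.span F {ax b}) ∨
    ∃ h ∈ M, ¬ IsMono h ∧ ∃ a b, (dual h : Matrix ι ι F) *ᵥ ax a ∈ Submodule.span F {ax b} := by
  classical
  by_contra hno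
  push Not at hno
  obtain ⟨hno, hno'⟩ := hno
  have hU : ∀ h ∈ M, (∃ a b, (h : Matrix ι ι F) *ᵥ ax a ∈ Submodule.span F {ax b}) → IsMono h :=
    fun h hh ⟨a, b, hab⟩ => by_contra fun hm => hno h hh hm a b hab
  have hUd : ∀ h ∈ M.comap (dual (ι := ι) (F := F)),
      (∃ a b, (h : Matrix ι ι F) *ᵥ ax a ∈ Submodule.span F {ax b}) → IsMono h :=
    fun h hh ⟨a, b, hab⟩ => by_contra fun hm =>
      hno' (dual h) hh (fun e => hm (isMono_of_dual e)) a b (by rwa [dual_dual])
  obtain ⟨ε, hε2, hε3, hε4⟩ := exists_scalar hq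
  have hG := no_zero hT hU hε2 hε3 hε4 hn hUd hgM hg
  have hsign := fun {k l : ι} (hkl : k ≠ l) => exists_sign_column hT hU hε2 hε3 hε4 hn hUd hgM hg hkl
  -- four indices
  let e := Fintype.equivFinOfCardEq hn
  set k := e.symm 0 with hk'
  set l := e.symm 1 with hl'
  set p := e.symm 2 with hp'
  set q := e.symm 3 with hq'
  have hkl : k ≠ l := fun h => by simpa using e.symm.injective h
  have hkp : k ≠ p := fun h => by simpa using e.symm.injective h
  have hkq : k ≠ q := fun h => by simpa using e.symm.injective h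
  have hlp : l ≠ p := fun h => by simpa using e.symm.injective h
  have hlq : l ≠ q := fun h => by simpa using e.symm.injective h
  have hpq : p ≠ q := fun h => by simpa using e.symm.injective h
  have hsum : ∀ f : ι → F, ∑ x, f x = f k + f l + f p + f q := fun f => by
    rw [← Equiv.sum_comp e.symm f, Fin.sum_univ_four]
  have h2 : (2 : F) ≠ 0 := fun h => (hsign hkl k).1 (by linear_combination -h)
  set U : Matrix ι ι F := ((g⁻¹ : GL ι F) : Matrix ι ι F) with hUdef
  let i := k
  set w : ι → F := fun x => U i x * (g : Matrix ι ι F) x i with hw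
  have hUG : ∀ j, U *ᵥ ((g : Matrix ι ι F) *ᵥ ax j) = ax j := fun j => by
    rw [hUdef, inv_mulVec_mulVec]
  have hrow : ∀ y : ι → F, (U *ᵥ y) i = U i k * y k + U i l * y l + U i p * y p + U i q * y q :=
    fun y => hsum fun x => U i x * y x
  have hw1 : w k + w l + w p + w q = 1 := by
    have := congrFun (hUG i) i
    rw [hrow, Pi.single_eq_same] at this
    simpa [hw, col_eq'] using this
  have heq : ∀ a b, a ≠ b →
      ∑ x, ((torPair a b (-1 : Fˣ) x : Fˣ) : F) * w x = 0 := by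
    intro a b hab
    obtain ⟨-, m', c, hm', hc⟩ := hsign hab i
    have h1 := congrFun (congrArg (U *ᵥ ·) hc) i
    simp only [mulVec_smul, hUG, Pi.smul_apply, smul_eq_mul, Pi.single_eq_of_ne (Ne.symm hm'),
      mul_zero] at h1
    rw [hrow] at h1
    rw [hsum]
    simp only [dg_mulVec, col_eq'] at h1
    simp only [hw]
    linear_combination h1
  have q1 := heq k l hkl
  have q2 := heq k p hkp
  have q3 := heq k q hkq
  rw [hsum] at q1 q2 q3
  simp [torPair, hkl, hkp, hkq, hlp, hlq, hpq, Ne.symm hkl, Ne.symm hkp, Ne.symm hkq, Ne.symm hlp,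
    Ne.symm hlq, Ne.symm hpq] at q1 q2 q3
  have hwl : w l = w k := mul_left_cancel₀ h2 (by linear_combination q2 + q3)
  have hwp : w p = w k := mul_left_cancel₀ h2 (by linear_combination q1 + q3)
  have hwq : w q = w k := mul_left_cancel₀ h2 (by linear_combination q1 + q2)
  have hwk : w k ≠ 0 := fun h => by
    rw [hwl, hwp, hwq, h] at hw1
    simp at hw1
  -- an element with a zero
  obtain ⟨-, m', c, hm', hc⟩ := hsign hkl i
  have hc0 : c ≠ 0 := fun h => by
    rw [h, zero_smul] at hc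
    exact mulVec_ne_zero _ (mulVec_ne_zero g (ax_ne_zero i)) hc
  let t : ι → Fˣ := fun x => torPair k l ε x * torPair p q ε x
  have ht : ∏ x, t x = 1 := by
    rw [Finset.prod_mul_distrib, prod_torPair hkl, prod_torPair hpq, one_mul]
  set A := g⁻¹ * dg t * g with hA
  have hAcol : ∀ j, (A : Matrix ι ι F) *ᵥ ax j =
      U *ᵥ ((dg t : Matrix ι ι F) *ᵥ ((g : Matrix ι ι F) *ᵥ ax j)) := fun j => by
    rw [hA, hUdef, Units.val_mul, Units.val_mul, ← mulVec_mulVec, ← mulVec_mulVec]
  have htk : (t k : F) = ε ∧ (t l : F) = (ε : F)⁻¹ ∧ (t p : F) = ε ∧ (t q : F) = (ε : F)⁻¹ := by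
    simp [t, torPair, hkp, hkq, hlp, hlq, hpq, Ne.symm hkl, Ne.symm hkp, Ne.symm hkq, Ne.symm hlp,
      Ne.symm hlq, Ne.symm hpq]
  obtain ⟨tk, tl, tp, tq⟩ := htk
  have hAim : (A : Matrix ι ι F) i m' = 0 := by
    refine (mul_eq_zero.1 (show c * (A : Matrix ι ι F) i m' = 0 from ?_)).resolve_left hc0
    rw [← col_eq', hAcol, ← smul_eq_mul, ← Pi.smul_apply, ← mulVec_smul, ← mulVec_smul, ← hc, hrow]
    simp only [dg_mulVec, col_eq', tk, tl, tp, tq]
    simp [torPair, hkp, hkq, hlp, hlq, Ne.symm hkl, Ne.symm hkp, Ne.symm hkq, Ne.symm hlp,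
      Ne.symm hlq]
    simp only [hw] at hwl hwp hwq
    linear_combination -(ε : F)⁻¹ * hwl + (ε : F) * hwp + (ε : F)⁻¹ * hwq
  have hε0 : (ε : F) ≠ 0 := ε.ne_zero
  have hAii : (A : Matrix ι ι F) i i ≠ 0 := by
    have e1 : (A : Matrix ι ι F) i i = w k * (2 * ((ε : F) + (ε : F)⁻¹)) := by
      rw [← col_eq', hAcol, hrow]
      simp only [dg_mulVec, col_eq', tk, tl, tp, tq]
      simp only [hw] at hwl hwp hwq ⊢
      linear_combination (ε : F)⁻¹ * hwl + (ε : F) * hwp + (ε : F)⁻¹ * hwq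
    rw [e1]
    refine mul_ne_zero hwk (mul_ne_zero h2 fun h => hε4 ?_)
    field_simp at h
    linear_combination ((ε : F) ^ 2 - 1) * h
  have hAm : IsMono A := by_contra fun h => no_zero hT hU hε2 hε3 hε4 hn hUd
    (M.mul_mem (M.mul_mem (M.inv_mem hgM) (hT t ht)) hgM) h i m' hAim
  obtain ⟨r, hr⟩ := hAm i
  obtain rfl : r = i := by
    by_contra hri
    exact hAii (by rw [← col_eq']; exact mem_axis_iff.1 hr i (Ne.symm hri))
  obtain ⟨s, hs⟩ := Submodule.mem_span_singleton.1 hr
  have h1 : (dg t : Matrix ι ι F) *ᵥ ((g : Matrix ι ι F) *ᵥ ax i) = s • ((g : Matrix ι ι F) *ᵥ ax i) := by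
    rw [← mulVec_smul, hs, hAcol, hUdef, mulVec_inv_mulVec]
  have ek := congrFun h1 k
  have el := congrFun h1 l
  simp only [dg_mulVec, Pi.smul_apply, smul_eq_mul, col_eq', tk, tl] at ek el
  have e1 : (ε : F) = s := mul_right_cancel₀ (hG k i) ek
  have e2 : (ε : F)⁻¹ = s := mul_right_cancel₀ (hG l i) el
  refine hε2 ?_
  rw [sq]
  nth_rewrite 2 [e1]
  rw [← e2, mul_inv_cancel₀ hε0]

end CfsgLib.SLFour90.MonoFixFour
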