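import Cfsg.Agent.SLFour90.OrthFourBase

/-!
Similarities of a quadratic form are maximal in the special linear group of dimension four, odd
characteristic: a normaliser element of a root group gives a transvection.
-/

set_option autoImplicit false
set_option linter.unusedSectionVars false

namespace CfsgLib.SLFour90.OrthFour

open Cfsg.Geo Module CfsgLib.OrthGeo
open scoped Matrix MatrixGroups

variable {ι : Type} [Fintype ι] [DecidableEq ι] {F : Type*} [Field F]
variable {Q : (ι → F) → F}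

/-- The elements unipotent with respect to a flag, given by its line and two subspaces. -/
def flagGroup (u : ι → F) (K L : Submodule F (ι → F)) (hu : u ∈ K) (hKL : K ≤ L) : Subgroup (GL ι F) where
  carrier := {m | (m : Matrix ι ι F) *ᵥ u = u ∧ (∀ x, (m : Matrix ι ι F) *ᵥ x - x ∈ L) ∧
    (∀ x ∈ L, (m : Matrix ι ι F) *ᵥ x - x ∈ K) ∧ ∀ x ∈ K, (m : Matrix ι ι F) *ᵥ x - x ∈ Submodule.span F {u}}
  mul_mem' := by
    rintro m n ⟨m1, m2, m3, m4⟩ ⟨n1, n2, n3, n4⟩
    have key : ∀ x, ((m * n : GL ι F) : Matrix ι ι F) *ᵥ x - x =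
        (m : Matrix ι ι F) *ᵥ ((n : Matrix ι ι F) *ᵥ x - x) + ((m : Matrix ι ι F) *ᵥ x - x) := fun x => by
      rw [Units.val_mul, ← Matrix.mulVec_mulVec, Matrix.mulVec_sub]; abel
    have hL : ∀ d ∈ L, (m : Matrix ι ι F) *ᵥ d ∈ L := fun d hd => by
      simpa using L.add_mem (m2 d) hd
    have hK : ∀ d ∈ K, (m : Matrix ι ι F) *ᵥ d ∈ K := fun d hd => by
      simpa using K.add_mem ((Submodule.span_singleton_le_iff_mem _ _).2 hu (m4 d hd)) hd
    have hs : ∀ d ∈ Submodule.span F {u}, (m : Matrix ι ι F) *ᵥ d ∈ Submodule.span F {u} := fun d hd => by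
      obtain ⟨s, rfl⟩ := Submodule.mem_span_singleton.1 hd
      rw [Matrix.mulVec_smul, m1]; exact hd
    refine ⟨?_, fun x => ?_, fun x hx => ?_, fun x hx => ?_⟩
    · rw [Units.val_mul, ← Matrix.mulVec_mulVec, n1, m1]
    · rw [key]; exact L.add_mem (hL _ (n2 x)) (m2 x)
    · rw [key]; exact K.add_mem (hK _ (n3 x hx)) (m3 x hx)
    · rw [key]; exact Submodule.add_mem _ (hs _ (n4 x hx)) (m4 x hx)
  one_mem' := ⟨by simp, fun x => by simp, fun x _ => by simp, fun x _ => by simp⟩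
  inv_mem' := by
    rintro m ⟨m1, m2, m3, m4⟩
    have key : ∀ x, ((m⁻¹ : GL ι F) : Matrix ι ι F) *ᵥ x - x =
        -((m : Matrix ι ι F) *ᵥ (((m⁻¹ : GL ι F) : Matrix ι ι F) *ᵥ x) -
          ((m⁻¹ : GL ι F) : Matrix ι ι F) *ᵥ x) := fun x => by
      rw [mulVec_inv_cancel]; abel
    have hL : ∀ x ∈ L, ((m⁻¹ : GL ι F) : Matrix ι ι F) *ᵥ x ∈ L := fun x hx => by
      have h1 := L.add_mem (L.neg_mem (m2 (((m⁻¹ : GL ι F) : Matrix ι ι F) *ᵥ x))) hx
      rw [← key, sub_add_cancel] at h1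
      exact h1
    have hK : ∀ x ∈ K, ((m⁻¹ : GL ι F) : Matrix ι ι F) *ᵥ x ∈ K := fun x hx => by
      have h1 := K.add_mem (K.neg_mem (m3 _ (hL x (hKL hx)))) hx
      rw [← key, sub_add_cancel] at h1
      exact h1
    refine ⟨?_, fun x => ?_, fun x hx => ?_, fun x hx => ?_⟩
    · conv_lhs => rw [← m1, inv_mulVec_cancel]
    · rw [key]; exact L.neg_mem (m2 _)
    · rw [key]; exact K.neg_mem (m3 _ (hL x hx))
    · rw [key]; exact Submodule.neg_mem _ (m4 _ (hK x hx))

/-- A flag group is a group of exponent a power of the characteristic. -/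
theorem flagGroup_pow (p : ℕ) [Fact p.Prime] [CharP F p] (hp : 3 ≤ p) [Nonempty ι] {u : ι → F}
    {K L : Submodule F (ι → F)} {hu : u ∈ K} {hKL : K ≤ L} {m : GL ι F} (hm : m ∈ flagGroup u K L hu hKL) :
    m ^ p ^ 2 = 1 := by
  obtain ⟨m1, m2, m3, m4⟩ := hm
  set N : Matrix ι ι F := (m : Matrix ι ι F) - 1 with hN
  have hNx : ∀ x, N *ᵥ x = (m : Matrix ι ι F) *ᵥ x - x := fun x => by
    rw [hN, Matrix.sub_mulVec, Matrix.one_mulVec]
  have h4 : N ^ 4 = 0 := Matrix.ext_of_mulVec_single fun i => by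
    obtain ⟨s, hs⟩ := Submodule.mem_span_singleton.1 (m4 _ (m3 _ (m2 (Pi.single i 1))))
    rw [show N ^ 4 = N * (N * (N * N)) by simp [pow_succ, mul_assoc], Matrix.zero_mulVec,
      ← Matrix.mulVec_mulVec, ← Matrix.mulVec_mulVec, ← Matrix.mulVec_mulVec, hNx (Pi.single i 1),
      hNx ((m : Matrix ι ι F) *ᵥ Pi.single i 1 - Pi.single i 1), hNx (_ - _), ← hs, hNx, Matrix.mulVec_smul, m1,
      sub_self]
  have hle : 4 ≤ p ^ 2 := le_trans (by norm_num) (Nat.pow_le_pow_left hp 2)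
  have h5 : N ^ p ^ 2 = 0 := pow_eq_zero_of_le hle h4
  rw [hN, sub_pow_char_pow_of_commute _ _ (Commute.one_right _), one_pow, sub_eq_zero] at h5
  exact Units.ext (by rw [Units.val_pow_eq_pow_val, h5, Units.val_one])

variable (hQ : IsNondegenerateQuadraticForm Q)
include hQ

/-- The root group of a singular vector. -/
def rootGroup {u : ι → F} (hu : Q u = 0) : Subgroup (GL ι F) where
  carrier := {m | ∃ (w : ι → F) (hw : bform hQ u w = 0), m = eichler hQ hu hw}
  mul_mem' := by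
    rintro _ _ ⟨w, hw, rfl⟩ ⟨w', hw', rfl⟩
    exact ⟨w + w', by rw [map_add, hw, hw', add_zero], eichler_mul hQ hu hw hw' _⟩
  one_mem' := ⟨0, map_zero _, Units.ext (eichlerMat_zero hQ u).symm⟩
  inv_mem' := by
    rintro _ ⟨w, hw, rfl⟩
    exact ⟨-w, by rw [map_neg, hw, neg_zero], Units.ext rfl⟩

variable [Finite F] (hn : Fintype.card ι = 4) (h2F : (2 : F) ≠ 0) {M : Subgroup (GL ι F)}
  (hI : ∀ k, k ∈ Cfsg.isometryGroup F Q → k ∈ Cfsg.Geo.specialLinear ι F → k ∈ M)
include hn h2F hI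

theorem eichler_mem {u w : ι → F} (hu : Q u = 0) (hw : bform hQ u w = 0) : eichler hQ hu hw ∈ M :=
  hI _ (eichler_mem_isometryGroup hQ hu hw) (eichler_specialLinear hQ hu hw)

theorem reflections_mem {a b : ι → F} (ha : Q a ≠ 0) (hb : Q b ≠ 0) :
    reflection hQ ha * reflection hQ hb ∈ M :=
  hI _ (reflection_pair hQ h2F ha hb).1 (reflection_pair hQ h2F ha hb).2

/-- An element fixing a singular vector and moving its perpendicular space. -/
theorem exists_move {g : GL ι F} (hgM : g ∈ M) {u : ι → F} (hu : Q u = 0)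
    (hgu : Q ((g : Matrix ι ι F) *ᵥ u) ≠ 0) :
    ∃ k ∈ M, (k : Matrix ι ι F) *ᵥ u = u ∧
      ∃ l, bform hQ u l = 0 ∧ bform hQ u ((k : Matrix ι ι F) *ᵥ l) ≠ 0 := by
  set z := (g : Matrix ι ι F) *ᵥ u with hz
  have hu0 : u ≠ 0 := fun e => hgu (by rw [hz, e, Matrix.mulVec_zero, q_zero hQ])
  obtain ⟨d, hd⟩ := exists_bform_eq hQ (bform hQ u ∘ₗ Matrix.toLin' ((g⁻¹ : GL ι F) : Matrix ι ι F))
  have hdx : ∀ x, bform hQ d x = bform hQ u (((g⁻¹ : GL ι F) : Matrix ι ι F) *ᵥ x) := fun x => by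
    rw [hd, LinearMap.comp_apply, Matrix.toLin'_apply]
  have hd0 : d ≠ 0 := by
    intro e
    refine hu0 ((b_nondeg hQ).1 u fun y => ?_)
    have := hdx ((g : Matrix ι ι F) *ᵥ y)
    rw [inv_mulVec_cancel, e, map_zero, LinearMap.zero_apply] at this
    exact this.symm
  have hdz : bform hQ d z = 0 := by rw [hdx, hz, inv_mulVec_cancel, b_self_eq_zero hQ hu]
  have hzz : bform hQ z z ≠ 0 := by rw [b_self hQ]; exact mul_ne_zero h2F hgu
  set W := perp hQ (Submodule.span F {z}) with hW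
  have hWn : ∀ x ∈ W, x ∈ perp hQ W → x = 0 := by
    intro x hx hx'
    rw [hW, perp_perp hQ] at hx'
    obtain ⟨r, rfl⟩ := Submodule.mem_span_singleton.1 hx'
    have h1 := (mem_perp_span_singleton hQ).1 hx
    rw [map_smul, smul_eq_mul, mul_eq_zero] at h1
    rw [h1.resolve_right hzz, zero_smul]
  have hWd : 3 ≤ finrank F W := by
    have := finrank_perp_add hQ (Submodule.span F {z})
    have : finrank F (Submodule.span F ({z} : Set (ι → F))) ≤ 1 := (finrank_span_le_card _).trans (by simp)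
    rw [hW]; omega
  obtain ⟨w₀, hw₀, hw₀d⟩ : ∃ w₀ ∈ W, bform hQ w₀ d ≠ 0 := by
    by_contra! hall
    have hmem : d ∈ Submodule.span F {z} := mem_span_of_perp hQ fun y hy => by
      rw [b_symm hQ]; exact hall y ((mem_perp_span_singleton hQ).2 hy)
    obtain ⟨r, hr⟩ := Submodule.mem_span_singleton.1 hmem
    rw [← hr, map_smul, LinearMap.smul_apply, smul_eq_mul, mul_eq_zero] at hdz
    exact hd0 (by rw [← hr, hdz.resolve_right hzz, zero_smul])
  obtain ⟨s₁, hs₁, s₂, hs₂, h1, h2, rfl⟩ := exists_two_singular hQ hWn hWd hw₀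
  obtain ⟨s, hs, hsQ, hsd⟩ : ∃ s ∈ W, Q s = 0 ∧ bform hQ s d ≠ 0 := by
    by_cases h : bform hQ s₁ d = 0
    · exact ⟨s₂, hs₂, h2, by rwa [map_add, LinearMap.add_apply, h, zero_add] at hw₀d⟩
    · exact ⟨s₁, hs₁, h1, h⟩
  obtain ⟨w, hw, hws⟩ := SetLike.not_le_iff_exists.1
    (show ¬ perp hQ (Submodule.span F {z} ⊔ Submodule.span F {s}) ≤ Submodule.span F {s} from fun hle => by
      have := Submodule.finrank_mono hle
      have := finrank_perp_add hQ (Submodule.span F {z} ⊔ Submodule.span F {s})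
      have := finrank_span_pair_le hQ z s
      have : finrank F (Submodule.span F ({s} : Set (ι → F))) ≤ 1 := (finrank_span_le_card _).trans (by simp)
      omega)
  obtain ⟨hzw, hsw⟩ := (mem_perp_pair hQ).1 hw
  have hzs := (mem_perp_span_singleton hQ).1 hs
  set E := eichler hQ hsQ hsw with hE
  have hEz : (E : Matrix ι ι F) *ᵥ z = z := by
    rw [hE, eichler_mulVec hQ, b_symm hQ s z, hzs, b_symm hQ w z, hzw]; simp
  have hEd : (E : Matrix ι ι F) *ᵥ d ∉ Submodule.span F {d} := by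
    intro hm
    obtain ⟨r, hr⟩ := Submodule.mem_span_singleton.1 hm
    rw [hE, eichler_mulVec hQ] at hr
    have h3 := congrArg (bform hQ s) hr
    simp only [map_add, map_sub, map_smul, smul_eq_mul, b_self_eq_zero hQ hsQ, hsw, mul_zero, add_zero,
      sub_zero] at h3
    have hr1 : r = 1 := mul_right_cancel₀ hsd (by linear_combination h3)
    subst hr1
    refine hws ((Submodule.smul_mem_iff _ hsd).1 (Submodule.mem_span_singleton.2
      ⟨bform hQ w d - Q w * bform hQ s d, ?_⟩))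
    rw [one_smul] at hr
    linear_combination (norm := module) -hr
  obtain ⟨x, hx, hx'⟩ : ∃ x, bform hQ d x = 0 ∧ bform hQ ((E : Matrix ι ι F) *ᵥ d) x ≠ 0 := by
    by_contra hno
    push Not at hno
    exact hEd (mem_span_of_perp hQ hno)
  refine ⟨g⁻¹ * E⁻¹ * g,
    M.mul_mem (M.mul_mem (M.inv_mem hgM) (M.inv_mem (eichler_mem hQ hn h2F hI hsQ hsw))) hgM, ?_,
    ((g⁻¹ : GL ι F) : Matrix ι ι F) *ᵥ x, by rw [← hdx]; exact hx, ?_⟩
  · rw [Units.val_mul, Units.val_mul, ← Matrix.mulVec_mulVec, ← Matrix.mulVec_mulVec, ← hz]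
    conv_lhs => rw [← hEz, inv_mulVec_cancel, hz, inv_mulVec_cancel]
  · rw [Units.val_mul, Units.val_mul, ← Matrix.mulVec_mulVec, ← Matrix.mulVec_mulVec, mulVec_inv_cancel, ← hdx,
      ← isometry_b hQ (eichler_mem_isometryGroup hQ hsQ hsw) d, mulVec_inv_cancel]
    exact hx'

/-- A transvection at a singular centre in `M`. -/
theorem exists_transvection {u : ι → F} (hu : Q u = 0) (hu0 : u ≠ 0) {k : GL ι F} (hk : k ∈ M)
    (hku : (k : Matrix ι ι F) *ᵥ u = u) {l : ι → F} (hl : bform hQ u l = 0)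
    (hkl : bform hQ u ((k : Matrix ι ι F) *ᵥ l) ≠ 0) :
    ∃ c, c ≠ 0 ∧ bform hQ c u = 0 ∧ TIn hQ M u c := by
  classical
  haveI : Nonempty ι := Fintype.card_pos_iff.1 (by omega)
  haveI : CharP F (ringChar F) := ringChar.charP F
  haveI : Fact (ringChar F).Prime := ⟨CharP.char_is_prime F (ringChar F)⟩
  have hp3 : 3 ≤ ringChar F := by
    have h2 := (Fact.out : (ringChar F).Prime).two_le
    have : ringChar F ≠ 2 := fun e => h2F (by
      have := ringChar.Nat.cast_ringChar (R := F)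
      rw [e] at this
      exact_mod_cast this)
    omega
  set L := perp hQ (Submodule.span F {u}) with hL
  have hmemL : ∀ x, x ∈ L ↔ bform hQ u x = 0 := fun x => mem_perp_span_singleton hQ
  have huu := b_self_eq_zero hQ hu
  set φ : Module.Dual F (ι → F) := bform hQ u ∘ₗ Matrix.toLin' (k : Matrix ι ι F) with hφ
  have hφx : ∀ x, φ x = bform hQ u ((k : Matrix ι ι F) *ᵥ x) := fun x => by
    rw [hφ, LinearMap.comp_apply, Matrix.toLin'_apply]
  set K := L ⊓ LinearMap.ker φ with hK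
  have hmemK : ∀ x, x ∈ K ↔ bform hQ u x = 0 ∧ bform hQ u ((k : Matrix ι ι F) *ᵥ x) = 0 := fun x => by
    rw [hK, Submodule.mem_inf, hmemL, LinearMap.mem_ker, hφx]
  have huK : u ∈ K := (hmemK u).2 ⟨huu, by rw [hku, huu]⟩
  set S := flagGroup u K L huK inf_le_left ⊓ M with hS
  set U := rootGroup hQ hu with hU
  have hspan : ∀ w c a : F, ∀ y ∈ K, w • u - c • y - a • u ∈ K := fun w c a y hy =>
    K.sub_mem (K.sub_mem (K.smul_mem _ huK) (K.smul_mem _ hy)) (K.smul_mem _ huK)
  have hUS : U ≤ S := by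
    rintro _ ⟨w, hw, rfl⟩
    have hin : ∀ x ∈ L, (eichler hQ hu hw : Matrix ι ι F) *ᵥ x - x ∈ Submodule.span F {u} := fun x hx => by
      refine Submodule.mem_span_singleton.2 ⟨bform hQ w x, ?_⟩
      rw [eichler_mulVec hQ, (hmemL x).1 hx]
      module
    refine ⟨⟨?_, fun x => ?_, fun x hx => (Submodule.span_singleton_le_iff_mem _ _).2 huK (hin x hx),
      fun x hx => hin x hx.1⟩, eichler_mem hQ hn h2F hI hu hw⟩
    · rw [eichler_mulVec hQ, huu, b_symm hQ w u, hw]; simp
    · rw [hmemL, eichler_mulVec hQ]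
      simp only [map_sub, map_add, map_smul, smul_eq_mul, huu, hw]
      ring
  -- a further element of the flag group
  obtain ⟨y, hy, hyu⟩ := SetLike.not_le_iff_exists.1 (show ¬ K ≤ Submodule.span F {u} from fun hle => by
    have h1 := Submodule.finrank_mono hle
    have h2 := Submodule.finrank_sup_add_finrank_inf_eq L (LinearMap.ker φ)
    have h3 := Submodule.finrank_le (L ⊔ LinearMap.ker φ)
    have h4 := finrank_perp_add hQ (Submodule.span F {u})
    have h5 : finrank F (Submodule.span F ({u} : Set (ι → F))) ≤ 1 := (finrank_span_le_card _).trans (by simp)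
    have h6 := LinearMap.finrank_range_add_finrank_ker φ
    have h7 : finrank F (LinearMap.range φ) ≤ 1 := (Submodule.finrank_le _).trans (finrank_self F).le
    rw [finrank_fintype_fun_eq_card] at h3 h6
    rw [← hL] at h4
    rw [← hK] at h2
    omega)
  obtain ⟨hyL, hyk⟩ := (hmemK y).1 hy
  set E := eichler hQ hu hyk with hE
  set h₀ := k⁻¹ * E * k with hh₀
  have hh₀x : ∀ x, (h₀ : Matrix ι ι F) *ᵥ x - x =
      bform hQ ((k : Matrix ι ι F) *ᵥ y) ((k : Matrix ι ι F) *ᵥ x) • u -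
        bform hQ u ((k : Matrix ι ι F) *ᵥ x) • y -
        (Q ((k : Matrix ι ι F) *ᵥ y) * bform hQ u ((k : Matrix ι ι F) *ᵥ x)) • u := fun x => by
    have hki : ((k⁻¹ : GL ι F) : Matrix ι ι F) *ᵥ u = u := by
      conv_lhs => rw [← hku, inv_mulVec_cancel]
    rw [hh₀, Units.val_mul, Units.val_mul, ← Matrix.mulVec_mulVec, ← Matrix.mulVec_mulVec, hE,
      eichler_mulVec hQ]
    simp only [Matrix.mulVec_sub, Matrix.mulVec_add, Matrix.mulVec_smul, inv_mulVec_cancel, hki]
    module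
  have hh₀S : h₀ ∈ S := by
    refine ⟨⟨?_, fun x => ?_, fun x _ => ?_, fun x hx => ?_⟩,
      M.mul_mem (M.mul_mem (M.inv_mem hk) (eichler_mem hQ hn h2F hI hu hyk)) hk⟩
    · rw [← sub_eq_zero, hh₀x, hku, huu, b_symm hQ, hyk]; simp
    · rw [hh₀x]; exact (hspan _ _ _ y hy : _ ∈ K).1
    · rw [hh₀x]; exact hspan _ _ _ y hy
    · rw [hh₀x, ((hmemK x).1 hx).2, zero_smul, mul_zero, zero_smul, sub_zero, sub_zero]
      exact Submodule.smul_mem _ _ (Submodule.mem_span_singleton_self u)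
  have hh₀U : h₀ ∉ U := by
    rintro ⟨w, hw, e⟩
    have h1 := hh₀x l
    rw [e, eichler_mulVec hQ, hl] at h1
    refine hyu ((Submodule.smul_mem_iff _ hkl).1 (Submodule.mem_span_singleton.2
      ⟨bform hQ ((k : Matrix ι ι F) *ᵥ y) ((k : Matrix ι ι F) *ᵥ l) -
        Q ((k : Matrix ι ι F) *ᵥ y) * bform hQ u ((k : Matrix ι ι F) *ᵥ l) - bform hQ w l, ?_⟩))
    linear_combination (norm := module) -h1
  -- the normaliser of the root group grows
  have hSp : IsPGroup (ringChar F) S := fun m => ⟨2, Subtype.ext (flagGroup_pow (ringChar F) hp3 m.2.1)⟩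
  haveI : Group.IsNilpotent S := hSp.isNilpotent
  have hlt : U.subgroupOf S < ⊤ := lt_top_iff_ne_top.2 fun e => hh₀U (by
    have : (⟨h₀, hh₀S⟩ : S) ∈ U.subgroupOf S := e ▸ Subgroup.mem_top _
    exact this)
  obtain ⟨⟨h, hhS⟩, hnorm, hhU⟩ := SetLike.exists_of_lt
    (Group.normalizerCondition_of_isNilpotent _ hlt)
  obtain ⟨⟨hu', hL', hLK, hKu⟩, hhM⟩ := id hhS
  have hhU' : h ∉ U := hhU
  have hconj : ∀ w (hw : bform hQ u w = 0), ∃ (w' : ι → F) (hw' : bform hQ u w' = 0),
      h * eichler hQ hu hw = eichler hQ hu hw' * h := by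
    intro w hw
    obtain ⟨w', hw', e⟩ := (Subgroup.mem_normalizer_iff.1 hnorm ⟨_, hUS ⟨w, hw, rfl⟩⟩).1 ⟨w, hw, rfl⟩
    exact ⟨w', hw', mul_inv_eq_iff_eq_mul.1 e⟩
  have huh : ∀ x, bform hQ u ((h : Matrix ι ι F) *ᵥ x) = bform hQ u x := fun x => by
    have := (hmemL _).1 (hL' x)
    rwa [map_sub, sub_eq_zero] at this
  obtain ⟨v, hv, huv⟩ := exists_partner hQ hu hu0
  have hpres : ∀ w x, bform hQ u w = 0 → bform hQ u x = 0 →
      bform hQ ((h : Matrix ι ι F) *ᵥ w) ((h : Matrix ι ι F) *ᵥ x) = bform hQ w x := by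
    intro w x hw hx
    obtain ⟨w', hw', e⟩ := hconj w hw
    have heq : ∀ t, ((h * eichler hQ hu hw : GL ι F) : Matrix ι ι F) *ᵥ t =
        ((eichler hQ hu hw' * h : GL ι F) : Matrix ι ι F) *ᵥ t := fun t => by rw [e]
    have ex := heq x
    have ev := heq v
    simp only [Units.val_mul, ← Matrix.mulVec_mulVec, eichler_mulVec hQ, Matrix.mulVec_add, Matrix.mulVec_sub,
      Matrix.mulVec_smul, hu', huh, hx, huv, zero_smul, mul_zero, sub_zero, mul_one, one_smul] at ex ev
    have e1 : bform hQ w' ((h : Matrix ι ι F) *ᵥ x) = bform hQ w x :=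
      smul_left_injective F hu0 (add_left_cancel ex).symm
    have e2 : (h : Matrix ι ι F) *ᵥ w = w' +
        (bform hQ w v - Q w - bform hQ w' ((h : Matrix ι ι F) *ᵥ v) + Q w') • u := by
      linear_combination (norm := module) -ev
    rw [e2, map_add, map_smul, LinearMap.add_apply, LinearMap.smul_apply, e1, huh, hx, smul_zero, add_zero]
  have hmod : ∀ x, bform hQ u x = 0 → (h : Matrix ι ι F) *ᵥ x - x ∈ Submodule.span F {u} := by
    intro x hx
    set m := (h : Matrix ι ι F) *ᵥ x - x with hm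
    have hmK : m ∈ K := hLK x ((hmemL x).2 hx)
    have hkm : ∀ y ∈ K, bform hQ y m = 0 := fun y hy => by
      obtain ⟨α, hα⟩ := Submodule.mem_span_singleton.1 (hKu y hy)
      have h1 := hpres y x ((hmemK y).1 hy).1 hx
      rw [show (h : Matrix ι ι F) *ᵥ y = y + α • u by rw [hα]; abel,
        show (h : Matrix ι ι F) *ᵥ x = x + m by rw [hm]; abel] at h1
      simp only [map_add, map_smul, LinearMap.add_apply, LinearMap.smul_apply, smul_eq_mul, hx,
        ((hmemK m).1 hmK).1, mul_zero, add_zero] at h1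
      linear_combination h1
    by_cases hxK : x ∈ K
    · exact hKu x hxK
    have hxm : bform hQ x m = 0 := by
      have h1 := hpres x x hx hx
      rw [show (h : Matrix ι ι F) *ᵥ x = x + m by rw [hm]; abel] at h1
      simp only [map_add, LinearMap.add_apply, hkm m hmK, add_zero, b_symm hQ m x] at h1
      exact (mul_eq_zero.1 (show (2 : F) * bform hQ x m = 0 by linear_combination h1)).resolve_left h2F
    have hφx0 : φ x ≠ 0 := fun e => hxK ((hmemK x).2 ⟨hx, by rw [← hφx]; exact e⟩)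
    refine mem_span_of_perp hQ fun x' hx' => ?_
    have hd : x' - (φ x' / φ x) • x ∈ K := (hmemK _).2
      ⟨by rw [map_sub, map_smul, hx', hx, smul_zero, sub_zero],
       by rw [← hφx, map_sub, map_smul, smul_eq_mul, div_mul_cancel₀ _ hφx0, sub_self]⟩
    have h2 := hkm _ hd
    rw [LinearMap.map_sub₂, LinearMap.map_smul₂, hxm, smul_zero, sub_zero] at h2
    rw [b_symm hQ]; exact h2
  set m := (h : Matrix ι ι F) *ᵥ v - v with hm
  have hum : bform hQ u m = 0 := (hmemL _).1 (hL' v)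
  set h' := eichler hQ hu hum * h with hh'
  have hh'x : ∀ x, (h' : Matrix ι ι F) *ᵥ x - x ∈ Submodule.span F {u} := by
    intro x
    have h0 : bform hQ u (x - bform hQ u x • v) = 0 := by
      rw [map_sub, map_smul, huv, smul_eq_mul, mul_one, sub_self]
    obtain ⟨α, hα⟩ := Submodule.mem_span_singleton.1 (hmod _ h0)
    rw [Matrix.mulVec_sub, Matrix.mulVec_smul] at hα
    refine Submodule.mem_span_singleton.2 ⟨α + bform hQ m ((h : Matrix ι ι F) *ᵥ x) - Q m * bform hQ u x, ?_⟩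
    rw [hh', Units.val_mul, ← Matrix.mulVec_mulVec, eichler_mulVec hQ, huh]
    rw [show m = (h : Matrix ι ι F) *ᵥ v - v from hm] at *
    linear_combination (norm := module) hα
  obtain ⟨c, hc⟩ := exists_bform_eq hQ (bform hQ v ∘ₗ (Matrix.toLin' (h' : Matrix ι ι F) - LinearMap.id))
  have hcx : ∀ x, (h' : Matrix ι ι F) *ᵥ x = x + bform hQ c x • u := fun x => by
    obtain ⟨α, hα⟩ := Submodule.mem_span_singleton.1 (hh'x x)
    rw [hc, LinearMap.comp_apply, LinearMap.sub_apply, LinearMap.id_apply, Matrix.toLin'_apply, ← hα,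
      map_smul, b_symm hQ v u, huv, smul_eq_mul, mul_one]
    rw [hα]; abel
  refine ⟨c, fun e => ?_, ?_, h', M.mul_mem (eichler_mem hQ hn h2F hI hu hum) hhM, hcx⟩
  · have h1 : h' = 1 := gl_ext fun x => by
      rw [hcx, e, map_zero, LinearMap.zero_apply, zero_smul, add_zero, Units.val_one, Matrix.one_mulVec]
    refine hhU' ?_
    rw [eq_inv_of_mul_eq_one_right h1]
    exact U.inv_mem ⟨m, hum, rfl⟩
  · have h1 := hcx u
    rw [hh', Units.val_mul, ← Matrix.mulVec_mulVec, hu', eichler_mulVec hQ, huu, b_symm hQ m u, hum] at h1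
    have h2 : bform hQ c u • u = 0 := by linear_combination (norm := module) -h1
    exact (smul_eq_zero.1 h2).resolve_right hu0

end CfsgLib.SLFour90.OrthFour
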