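import Cfsg.Agent.OrthGeo.SimilarityMaximal
import Cfsg.Agent.OrthGeo.RootLines
import Cfsg.Agent.Classical.FullCentres
import Cfsg.Agent.Classical.PseudoRefl

/-!
Isometries of determinant one and frames of a quadratic space of dimension four.
-/

set_option autoImplicit false
set_option linter.unusedSectionVars false

namespace CfsgLib.SLFour90.OrthFour

open Cfsg.Geo Module CfsgLib.OrthGeo
open scoped Matrix MatrixGroups

variable {ι : Type} [Fintype ι] [DecidableEq ι] {F : Type*} [Field F]
variable {Q : (ι → F) → F}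
variable (hQ : IsNondegenerateQuadraticForm Q)
include hQ

/-- Every functional is given by the bilinear form. -/
theorem exists_bform_eq (φ : Module.Dual F (ι → F)) : ∃ y, bform hQ y = φ :=
  (LinearMap.injective_iff_surjective_of_finrank_eq_finrank (Subspace.dual_finrank_eq).symm).1
    (LinearMap.ker_eq_bot.1 ((Submodule.eq_bot_iff _).2 fun z hz =>
      (b_nondeg hQ).1 z fun y => LinearMap.congr_fun hz y)) φ

/-- A vector perpendicular to everything perpendicular to `a` is a multiple of `a`. -/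
theorem mem_span_of_perp {a x : ι → F} (h : ∀ y, bform hQ a y = 0 → bform hQ x y = 0) :
    x ∈ Submodule.span F {a} := by
  rw [← perp_perp hQ (Submodule.span F {a}), mem_perp hQ]
  intro y hy
  rw [b_symm hQ]
  exact h y ((mem_perp_span_singleton hQ).1 hy)

theorem eichler_specialLinear {u w : ι → F} (hu : Q u = 0) (hw : bform hQ u w = 0) :
    eichler hQ hu hw ∈ Cfsg.Geo.specialLinear ι F := by
  have h1 : (bform hQ w + Q w • bform hQ u : Module.Dual F (ι → F)) u = 0 := by
    rw [LinearMap.add_apply, LinearMap.smul_apply, b_symm hQ, hw, b_self_eq_zero hQ hu, smul_zero, add_zero]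
  have h2 : (-bform hQ u : Module.Dual F (ι → F)) w = 0 := by rw [LinearMap.neg_apply, hw, neg_zero]
  have e : eichler hQ hu hw = CfsgLib.TransvGL.transv h1 * CfsgLib.TransvGL.transv h2 := gl_ext fun x => by
    rw [Units.val_mul, ← Matrix.mulVec_mulVec, CfsgLib.TransvGL.transv_mulVec,
      CfsgLib.TransvGL.transv_mulVec, eichler_mulVec hQ]
    simp only [LinearMap.add_apply, LinearMap.smul_apply, LinearMap.neg_apply, map_add, map_smul,
      smul_eq_mul, b_self hQ w, hw]
    module
  rw [e]
  exact mul_mem (CfsgLib.TransvGL.transv_mem_specialLinear h1) (CfsgLib.TransvGL.transv_mem_specialLinear h2)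

theorem det_reflection (h2F : (2 : F) ≠ 0) {a : ι → F} (ha : Q a ≠ 0) :
    (reflection hQ ha : Matrix ι ι F).det = -1 := by
  have hy : ((2 * Q a)⁻¹ • bform hQ a : Module.Dual F (ι → F)) a = 1 := by
    rw [LinearMap.smul_apply, b_self hQ, smul_eq_mul, inv_mul_cancel₀ (mul_ne_zero h2F ha)]
  have e : reflection hQ ha = CfsgLib.PseudoRefl.refl _ hy (-1) := gl_ext fun x => by
    rw [reflection_mulVec hQ, CfsgLib.PseudoRefl.refl_mulVec, LinearMap.smul_apply, smul_eq_mul,
      Units.val_neg, Units.val_one, sub_eq_add_neg, ← neg_smul]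
    congr 2
    field_simp
    ring
  rw [e, CfsgLib.PseudoRefl.det_refl, Units.val_neg, Units.val_one]

theorem reflection_pair (h2F : (2 : F) ≠ 0) {a b : ι → F} (ha : Q a ≠ 0) (hb : Q b ≠ 0) :
    reflection hQ ha * reflection hQ hb ∈ Cfsg.isometryGroup F Q ∧
      reflection hQ ha * reflection hQ hb ∈ Cfsg.Geo.specialLinear ι F := by
  refine ⟨mul_mem (reflection_mem hQ ha) (reflection_mem hQ hb), ?_⟩
  rw [CfsgLib.PseudoRefl.mem_specialLinear_iff, Units.val_mul, Matrix.det_mul, det_reflection hQ h2F,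
    det_reflection hQ h2F]
  ring

/-- An orthogonal basis of the complement of a hyperbolic pair. -/
theorem exists_frame (hn : Fintype.card ι = 4) (h2F : (2 : F) ≠ 0) {u v : ι → F}
    (hu : Q u = 0) (hv : Q v = 0) (huv : bform hQ u v = 1) :
    ∃ x y, bform hQ u x = 0 ∧ bform hQ v x = 0 ∧ bform hQ u y = 0 ∧ bform hQ v y = 0 ∧ bform hQ x y = 0 ∧
      Q x ≠ 0 ∧ Q y ≠ 0 ∧ ∀ z, ∃ a b : F, z = bform hQ v z • u + bform hQ u z • v + a • x + b • y := by
  have hvu : bform hQ v u = 1 := by rw [b_symm hQ, huv]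
  obtain ⟨x, hux, hvx, hx⟩ : ∃ x, bform hQ u x = 0 ∧ bform hQ v x = 0 ∧ Q x ≠ 0 := by
    by_contra hno
    push Not at hno
    set W := perp hQ (Submodule.span F {u} ⊔ Submodule.span F {v})
    have hW : IsTotallySingularQuad Q W := fun z hz =>
      hno z ((mem_perp_pair hQ).1 hz).1 ((mem_perp_pair hQ).1 hz).2
    have h1 := le_perp_self hQ hW
    rw [perp_perp hQ] at h1
    have hbot : W = ⊥ := (Submodule.eq_bot_iff _).2 fun z hz => by
      obtain ⟨_, k1, _, k2, rfl⟩ := Submodule.mem_sup.1 (h1 hz)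
      obtain ⟨r, rfl⟩ := Submodule.mem_span_singleton.1 k1
      obtain ⟨s, rfl⟩ := Submodule.mem_span_singleton.1 k2
      obtain ⟨e1, e2⟩ := (mem_perp_pair hQ).1 hz
      simp only [map_add, map_smul, smul_eq_mul, b_self_eq_zero hQ hu, b_self_eq_zero hQ hv, huv, hvu,
        mul_zero, mul_one, zero_add, add_zero] at e1 e2
      rw [e1, e2, zero_smul, zero_smul, add_zero]
    have h2 := finrank_perp_add hQ (Submodule.span F {u} ⊔ Submodule.span F {v})
    have h3 := finrank_span_pair_le hQ u v
    rw [show perp hQ (Submodule.span F {u} ⊔ Submodule.span F {v}) = W from rfl, hbot, finrank_bot] at h2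
    omega
  have hxx : bform hQ x x ≠ 0 := by rw [b_self hQ]; exact mul_ne_zero h2F hx
  have hxu : bform hQ x u = 0 := by rw [b_symm hQ, hux]
  have hxv : bform hQ x v = 0 := by rw [b_symm hQ, hvx]
  let L : (ι → F) →ₗ[F] F × F × F := (bform hQ u).prod ((bform hQ v).prod (bform hQ x))
  have hL : ∀ z, L z = (bform hQ u z, bform hQ v z, bform hQ x z) := fun z => rfl
  have hrange : LinearMap.range L = ⊤ := LinearMap.range_eq_top.2 fun p => by
    obtain ⟨a, b, c⟩ := p
    refine ⟨b • u + a • v + (c / bform hQ x x) • x, ?_⟩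
    simp only [hL, map_add, map_smul, smul_eq_mul, b_self_eq_zero hQ hu, b_self_eq_zero hQ hv, huv, hvu,
      hux, hvx, hxu, hxv, mul_zero, mul_one, zero_add, add_zero, div_mul_cancel₀ _ hxx]
  have hker : finrank F (LinearMap.ker L) = 1 := by
    have h1 := LinearMap.finrank_range_add_finrank_ker L
    rw [hrange, finrank_top, finrank_fintype_fun_eq_card, hn, finrank_prod, finrank_prod, finrank_self] at h1
    omega
  obtain ⟨⟨y, hyL⟩, hy0, hyspan⟩ := finrank_eq_one_iff'.1 hker
  have hy' := LinearMap.mem_ker.1 hyL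
  rw [hL, Prod.mk_eq_zero, Prod.mk_eq_zero] at hy'
  obtain ⟨huy, hvy, hxy⟩ := hy'
  have hdec : ∀ z, ∃ a b : F, z = bform hQ v z • u + bform hQ u z • v + a • x + b • y := by
    intro z
    set r := bform hQ x z / bform hQ x x with hr
    have hmem : z - (bform hQ v z • u + bform hQ u z • v + r • x) ∈ LinearMap.ker L := by
      rw [LinearMap.mem_ker, hL]
      simp only [map_sub, map_add, map_smul, smul_eq_mul, b_self_eq_zero hQ hu, b_self_eq_zero hQ hv, huv,
        hvu, hux, hvx, hxu, hxv, hr, div_mul_cancel₀ _ hxx, mul_zero, mul_one, zero_add, add_zero, sub_self]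
      rfl
    obtain ⟨s, hs⟩ := hyspan ⟨_, hmem⟩
    refine ⟨r, s, ?_⟩
    have hs' : s • y = z - (bform hQ v z • u + bform hQ u z • v + r • x) := congrArg Subtype.val hs
    rw [hs']; abel
  refine ⟨x, y, hux, hvx, huy, hvy, hxy, hx, fun hy => hy0 (Subtype.ext ?_), hdec⟩
  show y = 0
  refine (b_nondeg hQ).1 y fun z => ?_
  obtain ⟨a, b, e⟩ := hdec z
  rw [b_symm hQ y, e]
  simp only [map_add, map_smul, LinearMap.add_apply, LinearMap.smul_apply, smul_eq_mul, huy, hvy, hxy,
    b_self_eq_zero hQ hy, mul_zero, add_zero]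

/-- An element of a four-dimensional space preserving the singular vectors is a similarity. -/
theorem similarity_of_singular_four [Finite F] (hn : Fintype.card ι = 4) (h2F : (2 : F) ≠ 0) {g : GL ι F}
    (hg : ∀ u, Q u = 0 → Q ((g : Matrix ι ι F) *ᵥ u) = 0) : g ∈ quadSimilarityGroup Q := by
  obtain ⟨e, -, he0, he⟩ := exists_singular hQ (S := ⊤) (by
    rw [finrank_top, finrank_fintype_fun_eq_card]; omega)
  obtain ⟨f, hf, hef⟩ := exists_partner hQ he he0
  obtain ⟨x, y, hex, hfx, hey, hfy, hxy, hx, hy, hdec⟩ := exists_frame hQ hn h2F he hf hef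
  set G : (ι → F) → (ι → F) := fun z => (g : Matrix ι ι F) *ᵥ z with hG
  set k := bform hQ (G e) (G f) with hk
  set A : (ι → F) → F := fun z => bform hQ (G e) (G z) with hA
  set B : (ι → F) → F := fun z => bform hQ (G f) (G z) with hB
  have base : ∀ z r, r ≠ 0 → bform hQ e z = 0 → bform hQ f z = 0 →
      -(Q z) * k + Q (G z) + r * A z - Q z / r * B z = 0 := by
    intro z r hr hez hfz
    obtain ⟨s, hs⟩ : ∃ s, r * s = Q z := ⟨Q z / r, mul_div_cancel₀ _ hr⟩
    rw [show Q z / r = s by rw [← hs, mul_div_cancel_left₀ _ hr]]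
    have h1 : Q (r • e + (-s) • f + z) = 0 := by
      simp only [q_add hQ, q_smul hQ, map_add, map_smul, LinearMap.add_apply, LinearMap.smul_apply,
        smul_eq_mul, he, hf, hef, hez, hfz]
      linear_combination -hs
    have h2 := hg _ h1
    simp only [Matrix.mulVec_add, Matrix.mulVec_smul, q_add hQ, q_smul hQ, map_add, map_smul,
      LinearMap.add_apply, LinearMap.smul_apply, smul_eq_mul, hg e he, hg f hf] at h2
    have hk' : bform hQ ((g : Matrix ι ι F) *ᵥ e) ((g : Matrix ι ι F) *ᵥ f) = k := rfl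
    rw [hk'] at h2
    simp only [hA, hB, hG]
    linear_combination h2 + k * hs
  have hAB : ∀ z, bform hQ e z = 0 → bform hQ f z = 0 → A z = Q z * B z ∧ Q (G z) = k * Q z := by
    intro z hez hfz
    have h1 := base z 1 one_ne_zero hez hfz
    have h2 := base z (-1) (neg_ne_zero.2 one_ne_zero) hez hfz
    rw [one_mul, div_one] at h1
    rw [div_neg, div_one] at h2
    refine ⟨mul_left_cancel₀ h2F ?_, mul_left_cancel₀ h2F ?_⟩
    · linear_combination h1 - h2
    · linear_combination h1 + h2
  have hadd : ∀ z z', A (z + z') = A z + A z' ∧ B (z + z') = B z + B z' := fun z z' =>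
    ⟨by simp only [hA, hG, Matrix.mulVec_add, map_add], by simp only [hB, hG, Matrix.mulVec_add, map_add]⟩
  have hsmul : ∀ (c : F) z, A (c • z) = c * A z ∧ B (c • z) = c * B z := fun c z =>
    ⟨by simp only [hA, hG, Matrix.mulVec_smul, map_smul, smul_eq_mul],
      by simp only [hB, hG, Matrix.mulVec_smul, map_smul, smul_eq_mul]⟩
  have hplus : ∀ z z', bform hQ z z' = 0 → bform hQ e z = 0 → bform hQ f z = 0 → bform hQ e z' = 0 →
      bform hQ f z' = 0 → Q z * B z' + Q z' * B z = 0 := by
    intro z z' hzz a1 a2 a3 a4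
    have h1 := (hAB (z + z') (by rw [map_add, a1, a3, add_zero]) (by rw [map_add, a2, a4, add_zero])).1
    rw [(hadd z z').1, (hadd z z').2, q_add hQ, hzz, add_zero, (hAB z a1 a2).1, (hAB z' a3 a4).1] at h1
    linear_combination -h1
  have p1 := hplus x y hxy hex hfx hey hfy
  have p2 := hplus x ((-1 : F) • y) (by rw [map_smul, hxy, smul_zero]) hex hfx
    (by rw [map_smul, hey, smul_zero]) (by rw [map_smul, hfy, smul_zero])
  rw [q_smul hQ, (hsmul _ y).2] at p2
  have hBx : B x = 0 := by
    have h1 : (2 * Q y) * B x = 0 := by linear_combination p1 + p2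
    exact (mul_eq_zero.1 h1).resolve_left (mul_ne_zero h2F hy)
  have hBy : B y = 0 := by
    rw [hBx, mul_zero, add_zero] at p1
    exact (mul_eq_zero.1 p1).resolve_left hx
  have hAx : A x = 0 := by rw [(hAB x hex hfx).1, hBx, mul_zero]
  have hAy : A y = 0 := by rw [(hAB y hey hfy).1, hBy, mul_zero]
  have hxy' : bform hQ (G x) (G y) = 0 := by
    have h1 := (hAB (x + y) (by rw [map_add, hex, hey, add_zero]) (by rw [map_add, hfx, hfy, add_zero])).2
    rw [q_add hQ x y, hxy] at h1
    simp only [hG] at h1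
    rw [Matrix.mulVec_add, q_add hQ] at h1
    simp only [hG]
    linear_combination h1 - (hAB x hex hfx).2 - (hAB y hey hfy).2
  have hall : ∀ z, Q (G z) = k * Q z := by
    intro z
    obtain ⟨a, b, hz⟩ := hdec z
    rw [hz]
    have q1 := (hAB x hex hfx).2
    have q2 := (hAB y hey hfy).2
    simp only [hA, hB, hG] at hAx hAy hBx hBy hxy' q1 q2 hk ⊢
    simp only [Matrix.mulVec_add, Matrix.mulVec_smul, q_add hQ, q_smul hQ, map_add, map_smul,
      LinearMap.add_apply, LinearMap.smul_apply, smul_eq_mul, hg e he, hg f hf, he, hf, hef, hex, hfx, hey,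
      hfy, hxy, hAx, hAy, hBx, hBy, hxy', q1, q2, ← hk]
    ring
  have hk0 : k ≠ 0 := by
    intro h0
    have h1 := hall (((g⁻¹ : GL ι F) : Matrix ι ι F) *ᵥ (e + f))
    simp only [hG] at h1
    rw [mulVec_inv_cancel, h0, zero_mul, q_add hQ, he, hf, hef] at h1
    simp at h1
  exact ⟨Units.mk0 k hk0, hall⟩

end CfsgLib.SLFour90.OrthFour
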