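import Cfsg.Agent.SLFour90.OrthFour

/-!
Similarities of a quadratic form are maximal in the special linear group of dimension four, odd
characteristic: generation from a transvection.
-/

set_option autoImplicit false
set_option linter.unusedSectionVars false

namespace CfsgLib.SLFour90.OrthFour

open Cfsg.Geo Module CfsgLib.OrthGeo
open scoped Matrix MatrixGroups

variable {ι : Type} [Fintype ι] [DecidableEq ι] {F : Type*} [Field F]
variable {Q : (ι → F) → F}
variable (hQ : IsNondegenerateQuadraticForm Q)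
include hQ

/-- Conjugating a transvection, with the new functional given. -/
theorem tin_conj {M : Subgroup (GL ι F)} {a c c' : ι → F} (h : TIn hQ M a c) {g : GL ι F} (hg : g ∈ M)
    (hc : ∀ x, bform hQ c' ((g : Matrix ι ι F) *ᵥ x) = bform hQ c x) :
    TIn hQ M ((g : Matrix ι ι F) *ᵥ a) c' := by
  obtain ⟨k, hk, hx⟩ := h
  refine ⟨g * k * g⁻¹, M.mul_mem (M.mul_mem hg hk) (M.inv_mem hg), fun x => ?_⟩
  obtain ⟨y, rfl⟩ : ∃ y, x = (g : Matrix ι ι F) *ᵥ y := ⟨_, (mulVec_inv_cancel g x).symm⟩
  rw [Units.val_mul, Units.val_mul, ← Matrix.mulVec_mulVec, ← Matrix.mulVec_mulVec, inv_mulVec_cancel, hx,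
    Matrix.mulVec_add, Matrix.mulVec_smul, hc]

variable [Finite F] (hn : Fintype.card ι = 4) (h2F : (2 : F) ≠ 0) {M : Subgroup (GL ι F)}
  (hI : ∀ k, k ∈ Cfsg.isometryGroup F Q → k ∈ Cfsg.Geo.specialLinear ι F → k ∈ M)
include hn h2F hI

/-- The isometric transvection directions at a singular centre. -/
theorem tin_scalar {u c : ι → F} (hu : Q u = 0) (hu0 : u ≠ 0) (hc : c ≠ 0) (hcu : bform hQ c u = 0)
    (h : TIn hQ M u c) (s : F) : TIn hQ M u (s • u) := by
  have huu := b_self_eq_zero hQ hu
  by_cases hcs : c ∈ Submodule.span F {u}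
  · obtain ⟨r, rfl⟩ := Submodule.mem_span_singleton.1 hcs
    have hr : r ≠ 0 := fun e => hc (by rw [e, zero_smul])
    obtain ⟨v, hv, huv⟩ := exists_partner hQ hu hu0
    have hvu : bform hQ v u = 1 := by rw [b_symm hQ, huv]
    have hsq : ∀ t : F, TIn hQ M u ((t ^ 2 * r) • u) := by
      intro t
      by_cases ht : t = 0
      · refine ⟨1, M.one_mem, fun x => ?_⟩
        rw [ht, Units.val_one, Matrix.one_mulVec]
        simp
      have hQa : Q (u - t⁻¹ • v) ≠ 0 := by
        rw [q_sub hQ, q_smul hQ, map_smul, hu, hv, huv]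
        simpa using ht
      have hQb : Q (u - v) ≠ 0 := by
        rw [q_sub hQ, hu, hv, huv]; simp
      have hb : (reflection hQ hQb : Matrix ι ι F) *ᵥ u = v := by
        rw [reflection_mulVec hQ]
        simp only [q_sub hQ, hu, hv, huv, map_sub, LinearMap.sub_apply, huu, hvu]
        match_scalars <;> norm_num
      have ha : (reflection hQ hQa : Matrix ι ι F) *ᵥ v = t • u := by
        rw [reflection_mulVec hQ]
        simp only [q_sub hQ, q_smul hQ, hu, hv, huv, map_sub, map_smul, LinearMap.sub_apply,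
          LinearMap.smul_apply, b_self_eq_zero hQ hv, smul_eq_mul]
        match_scalars <;> simp [ht]
      set g := reflection hQ hQa * reflection hQ hQb with hg
      have hgu : (g : Matrix ι ι F) *ᵥ u = t • u := by
        rw [hg, Units.val_mul, ← Matrix.mulVec_mulVec, hb, ha]
      have h1 := h.conj hQ (reflections_mem hQ hn h2F hI hQa hQb) (reflection_pair hQ h2F hQa hQb).1
      rw [← hg, Matrix.mulVec_smul, hgu] at h1
      refine h1.congr hQ fun x => ?_
      simp only [map_smul, LinearMap.smul_apply, smul_eq_mul, smul_smul]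
      ring_nf
    set A := (s / r + 1) / 2 with hA
    set B := (s / r - 1) / 2 with hB
    have e : s • u = (A ^ 2 * r) • u + -((B ^ 2 * r) • u) := by
      rw [← sub_eq_add_neg, ← sub_smul]
      congr 1
      rw [hA, hB]
      field_simp
      ring
    rw [e]
    exact (hsq A).add_right hQ ((hsq B).neg_right hQ (by rw [map_smul, LinearMap.smul_apply, huu, smul_zero]))
      (by rw [map_smul, LinearMap.smul_apply, huu, smul_zero])
  · obtain ⟨w, huw, hwc⟩ : ∃ w, bform hQ u w = 0 ∧ bform hQ c w ≠ 0 := by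
      by_contra hno
      push Not at hno
      exact hcs (mem_span_of_perp hQ hno)
    have ht : bform hQ u ((s / bform hQ c w) • w) = 0 := by rw [map_smul, huw, smul_zero]
    have h1 := h.conj hQ (eichler_mem hQ hn h2F hI hu ht) (eichler_mem_isometryGroup hQ hu ht)
    have e1 : (eichler hQ hu ht : Matrix ι ι F) *ᵥ u = u := by
      rw [eichler_mulVec hQ, huu, map_smul, LinearMap.smul_apply, b_symm hQ w u, huw]; simp
    have e2 : (eichler hQ hu ht : Matrix ι ι F) *ᵥ c = c + s • u := by
      rw [eichler_mulVec hQ, b_symm hQ u c, hcu, map_smul, LinearMap.smul_apply, b_symm hQ w c,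
        smul_eq_mul, div_mul_cancel₀ _ hwc]
      simp
    rw [e1, e2] at h1
    have hcu' : bform hQ (c + s • u) u = 0 := by
      rw [map_add, map_smul, LinearMap.add_apply, LinearMap.smul_apply, hcu, huu, smul_zero, add_zero]
    have h2 := h1.add_right hQ (h.neg_right hQ hcu) hcu'
    rwa [show c + s • u + -c = s • u by abel] at h2

/-- The directions at `u` move to a singular vector with product one. -/
theorem tin_swap {u v : ι → F} (hu : Q u = 0) (hv : Q v = 0) (huv : bform hQ u v = 1)
    (h : ∀ s : F, TIn hQ M u (s • u)) (s : F) : TIn hQ M v (s • v) := by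
  obtain ⟨x, y, hux, hvx, -, -, -, hx, -, -⟩ := exists_frame hQ hn h2F hu hv huv
  have hQb : Q (u - v) ≠ 0 := by rw [q_sub hQ, hu, hv, huv]; simp
  have hb : (reflection hQ hQb : Matrix ι ι F) *ᵥ u = v := by
    rw [reflection_mulVec hQ]
    simp only [q_sub hQ, hu, hv, huv, map_sub, LinearMap.sub_apply, b_self_eq_zero hQ hu, b_symm hQ v u]
    match_scalars <;> norm_num
  have hgu : ((reflection hQ hx * reflection hQ hQb : GL ι F) : Matrix ι ι F) *ᵥ u = v := by
    rw [Units.val_mul, ← Matrix.mulVec_mulVec, hb, reflection_mulVec hQ, b_symm hQ x v, hvx]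
    simp
  have h1 := (h s).conj hQ (reflections_mem hQ hn h2F hI hx hQb) (reflection_pair hQ h2F hx hQb).1
  rwa [Matrix.mulVec_smul, hgu] at h1

/-- Transvections at `v` with functional given by an anisotropic vector of the complement. -/
theorem tin_complement {u v w : ι → F} (hu : Q u = 0) (hv : Q v = 0) (huv : bform hQ u v = 1)
    (huw : bform hQ u w = 0) (hvw : bform hQ v w = 0) (hw : Q w ≠ 0)
    (hTu : ∀ s : F, TIn hQ M u (s • u)) (hTv : ∀ s : F, TIn hQ M v (s • v)) (s : F) :
    TIn hQ M v (s • w) := by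
  have hvu : bform hQ v u = 1 := by rw [b_symm hQ, huv]
  have huu := b_self_eq_zero hQ hu
  have hvv := b_self_eq_zero hQ hv
  have hwu : bform hQ w u = 0 := by rw [b_symm hQ, huw]
  have hwv : bform hQ w v = 0 := by rw [b_symm hQ, hvw]
  set q := Q w with hq
  set p := v - q • u with hp
  set p' := v + q • u with hp'
  have hpp : bform hQ p' p = 0 := by
    simp only [hp, hp', map_sub, map_add, map_smul, LinearMap.add_apply, LinearMap.smul_apply, huv, hvu, huu,
      hvv, smul_eq_mul]
    ring
  have hTp : ∀ t : F, TIn hQ M p (t • p') := by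
    intro t
    obtain ⟨g, hg, hgx⟩ := hTu (-q)
    have h1 := tin_conj hQ (c' := t • p') (hTv t) hg fun x => by
      rw [hgx]
      simp only [hp', map_add, map_smul, LinearMap.add_apply, LinearMap.smul_apply, smul_eq_mul, huu, hvu]
      ring
    rwa [hgx, show v + bform hQ ((-q) • u) v • u = p by
      rw [map_smul, LinearMap.smul_apply, huv, hp, smul_eq_mul, mul_one, neg_smul, ← sub_eq_add_neg]] at h1
  set z := p - w with hz
  have huwm : bform hQ u (-w) = 0 := by rw [map_neg, huw, neg_zero]
  have hE : (eichler hQ hu huw : Matrix ι ι F) *ᵥ v = z := by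
    rw [eichler_mulVec hQ, hwv, huv, hz, hp, zero_smul, add_zero, one_smul, mul_one]
    abel
  have hTz : TIn hQ M z z := by
    have h1 := (hTv 1).conj hQ (eichler_mem hQ hn h2F hI hu huw) (eichler_mem_isometryGroup hQ hu huw)
    rwa [one_smul, hE] at h1
  have hp'z : bform hQ p' z = 0 := by
    rw [hz, map_sub, hpp, hp', map_add, map_smul, LinearMap.add_apply, LinearMap.smul_apply, hvw, huw]
    simp
  have hzz : bform hQ z z = 0 := by
    simp only [hz, hp, map_sub, map_smul, LinearMap.sub_apply, LinearMap.smul_apply, huv, hvu, huu, hvv, huw,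
      hvw, hwu, hwv, b_self hQ w, smul_eq_mul, ← hq]
    ring
  have hTz' : ∀ t : F, TIn hQ M z (t • p') := by
    intro t
    set r := t / (2 * q) with hr
    obtain ⟨g, hg, hgx⟩ := hTp r
    have h1 := tin_conj hQ (c' := z + t • p') hTz hg fun x => by
      rw [hgx]
      have e : bform hQ z p = -(2 * q) := by
        simp only [hz, hp, map_sub, map_smul, LinearMap.sub_apply, LinearMap.smul_apply, huv, hvu, huu, hvv,
          hwu, hwv, smul_eq_mul]
        ring
      simp only [map_add, map_smul, LinearMap.add_apply, LinearMap.smul_apply, smul_eq_mul, e, hpp, hr]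
      field_simp
      ring
    rw [hgx, map_smul, LinearMap.smul_apply, hp'z, smul_zero, zero_smul, add_zero] at h1
    have h2 := h1.add_right hQ (hTz.neg_right hQ hzz) (by
      rw [map_add, map_smul, LinearMap.add_apply, LinearMap.smul_apply, hzz, hp'z, smul_zero, add_zero])
    rwa [show z + t • p' + -z = t • p' by abel] at h2
  have h1 := (hTz' s).conj hQ (eichler_mem hQ hn h2F hI hu huwm) (eichler_mem_isometryGroup hQ hu huwm)
  have e1 : (eichler hQ hu huwm : Matrix ι ι F) *ᵥ z = v := by
    rw [eichler_mulVec hQ]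
    simp only [hz, hp, map_sub, map_neg, map_smul, LinearMap.neg_apply, q_neg hQ, huv, hwu, hwv, huu, huw,
      b_self hQ w, smul_eq_mul, ← hq]
    module
  have e2 : (eichler hQ hu huwm : Matrix ι ι F) *ᵥ p' = v + w := by
    rw [eichler_mulVec hQ]
    simp only [hp', map_add, map_neg, map_smul, LinearMap.neg_apply, q_neg hQ, huv, hwu, hwv, huu,
      smul_eq_mul, ← hq]
    module
  rw [Matrix.mulVec_smul, e1, e2] at h1
  have h2 := h1.add_right hQ ((hTv s).neg_right hQ (by rw [map_smul, LinearMap.smul_apply, hvv, smul_zero]))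
    (by rw [map_smul, LinearMap.smul_apply, map_add, LinearMap.add_apply, hvv, hwv, add_zero, smul_zero])
  rwa [show s • (v + w) + -(s • v) = s • w by module] at h2

/-- All transvections at `v`. -/
theorem full_centre {u v : ι → F} (hu : Q u = 0) (hv : Q v = 0) (huv : bform hQ u v = 1)
    (hTu : ∀ s : F, TIn hQ M u (s • u)) (hTv : ∀ s : F, TIn hQ M v (s • v)) :
    CfsgLib.FullCentres.Full M v := by
  intro φ hφ
  obtain ⟨c, rfl⟩ := exists_bform_eq hQ φ
  obtain ⟨x, y, hux, hvx, huy, hvy, -, hx, hy, hdec⟩ := exists_frame hQ hn h2F hu hv huv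
  obtain ⟨a, b, e⟩ := hdec c
  rw [show bform hQ v c = 0 by rw [b_symm hQ]; exact hφ, zero_smul, zero_add] at e
  have hxv : bform hQ x v = 0 := by rw [b_symm hQ, hvx]
  have hyv : bform hQ y v = 0 := by rw [b_symm hQ, hvy]
  have h1 := ((hTv (bform hQ u c)).add_right hQ (tin_complement hQ hn h2F hI hu hv huv hux hvx hx hTu hTv a)
    (by rw [map_smul, LinearMap.smul_apply, b_self_eq_zero hQ hv, smul_zero])).add_right hQ
      (tin_complement hQ hn h2F hI hu hv huv huy hvy hy hTu hTv b)
    (by rw [map_add, map_smul, map_smul, LinearMap.add_apply, LinearMap.smul_apply, LinearMap.smul_apply,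
      b_self_eq_zero hQ hv, hxv, smul_zero, smul_zero, add_zero])
  rw [← e] at h1
  obtain ⟨g, hg, hgx⟩ := h1
  refine ⟨hφ, ?_⟩
  rwa [show CfsgLib.TransvGL.transv hφ = g from gl_ext fun z => by rw [CfsgLib.TransvGL.transv_mulVec, hgx]]

/-- The whole special linear group. -/
theorem specialLinear_le {g : GL ι F} (hgM : g ∈ M) (hg : g ∉ quadSimilarityGroup Q) :
    Cfsg.Geo.specialLinear ι F ≤ M := by
  obtain ⟨u, hu, hgu⟩ : ∃ u, Q u = 0 ∧ Q ((g : Matrix ι ι F) *ᵥ u) ≠ 0 := by
    by_contra hc
    push Not at hc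
    exact hg (similarity_of_singular_four hQ hn h2F hc)
  have hu0 : u ≠ 0 := fun e => hgu (by rw [e, Matrix.mulVec_zero, q_zero hQ])
  obtain ⟨k, hk, hku, l, hl, hkl⟩ := exists_move hQ hn h2F hI hgM hu hgu
  obtain ⟨c, hc0, hcu, hT⟩ := exists_transvection hQ hn h2F hI hu hu0 hk hku hl hkl
  have hTu := tin_scalar hQ hn h2F hI hu hu0 hc0 hcu hT
  obtain ⟨v, hv, huv⟩ := exists_partner hQ hu hu0
  have hvu : bform hQ v u = 1 := by rw [b_symm hQ, huv]
  obtain ⟨x, y, hux, hvx, huy, hvy, -, hx, hy, hdec⟩ := exists_frame hQ hn h2F hu hv huv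
  refine CfsgLib.FullCentres.specialLinear_le_of_full
    (S := insert u {t | Q t = 0 ∧ bform hQ u t = 1}) ?_ ?_
  · set T := Submodule.span F (insert u {t | Q t = 0 ∧ bform hQ u t = 1}) with hT'
    have hu' : u ∈ T := Submodule.subset_span (Set.mem_insert _ _)
    have hv' : v ∈ T := Submodule.subset_span (Set.mem_insert_of_mem _ ⟨hv, huv⟩)
    have hmove : ∀ w, bform hQ u w = 0 → bform hQ v w = 0 → w ∈ T := by
      intro w huw hvw
      have h1 : (eichler hQ hu huw : Matrix ι ι F) *ᵥ v ∈ T := Submodule.subset_span (Set.mem_insert_of_mem _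
        ⟨by rw [mem_isometryGroup.1 (eichler_mem_isometryGroup hQ hu huw), hv], by
          rw [eichler_mulVec hQ]
          simp only [map_sub, map_add, map_smul, smul_eq_mul, b_self_eq_zero hQ hu, huv, huw]
          ring⟩)
      rw [eichler_mulVec hQ, b_symm hQ w v, hvw, huv, zero_smul, add_zero, one_smul, mul_one] at h1
      have h2 := T.sub_mem (T.sub_mem hv' h1) (T.smul_mem (Q w) hu')
      rwa [show v - (v - w - Q w • u) - Q w • u = w by abel] at h2
    refine eq_top_iff.2 fun z _ => ?_
    obtain ⟨a, b, e⟩ := hdec z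
    rw [e]
    exact T.add_mem (T.add_mem (T.add_mem (T.smul_mem _ hu') (T.smul_mem _ hv'))
      (T.smul_mem _ (hmove x hux hvx))) (T.smul_mem _ (hmove y huy hvy))
  · intro t ht
    rcases Set.mem_insert_iff.1 ht with rfl | ⟨htQ, hut⟩
    · exact full_centre hQ hn h2F hI hv hu hvu (tin_swap hQ hn h2F hI hu hv huv hTu) hTu
    · exact full_centre hQ hn h2F hI hu htQ hut hTu (tin_swap hQ hn h2F hI hu htQ hut hTu)

omit [Finite F] hn h2F hI in
/-- Similarities of determinant one do not contain every transvection. -/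
theorem not_specialLinear_le {u v : ι → F} (hu : Q u = 0) (hv : Q v = 0) (huv : bform hQ u v = 1) :
    ¬ Cfsg.Geo.specialLinear ι F ≤ quadSimilarityGroup Q := fun hle => by
  obtain ⟨c, hc⟩ := hle (CfsgLib.TransvGL.transv_mem_specialLinear (φ := bform hQ u) (v := u)
    (b_self_eq_zero hQ hu))
  have h1 := hc v
  rw [CfsgLib.TransvGL.transv_mulVec, huv, one_smul, q_add hQ, hv, hu, b_symm hQ v u, huv] at h1
  simp at h1

omit hI in
theorem isMaximal : IsMaximalIn (Cfsg.Geo.specialLinear ι F)
    (quadSimilarityGroup Q ⊓ Cfsg.Geo.specialLinear ι F) := by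
  obtain ⟨u, -, hu0, hu⟩ := exists_singular hQ (S := ⊤) (by
    rw [finrank_top, finrank_fintype_fun_eq_card]; omega)
  obtain ⟨v, hv, huv⟩ := exists_partner hQ hu hu0
  refine ⟨lt_of_le_not_ge inf_le_right fun hle =>
    not_specialLinear_le hQ hu hv huv (hle.trans inf_le_left), fun M hPM hMS => ?_⟩
  by_cases hMP : M ≤ quadSimilarityGroup Q
  · exact Or.inl (le_antisymm (le_inf hMP hMS) hPM)
  obtain ⟨g, hgM, hgP⟩ := SetLike.not_le_iff_exists.1 hMP
  refine Or.inr (le_antisymm hMS (specialLinear_le hQ hn h2F ?_ hgM hgP))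
  exact fun k hk hks => hPM ⟨⟨1, fun x => by rw [Units.val_one, one_mul, mem_isometryGroup.1 hk]⟩, hks⟩

end CfsgLib.SLFour90.OrthFour
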