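import Cfsg.Agent.Classical.BlockOvergroup

/-!
Overgroups in SL of dimension four of the stabiliser of two complementary planes.
-/

set_option autoImplicit false

namespace CfsgLib.SLFour90.PlanesFour

open Matrix CfsgLib.TransvGL CfsgLib.FullCentres CfsgLib.PseudoRefl CfsgLib.DecompProj
open CfsgLib.BlockOvergroup (proj_proj apply_other exists_not_span exists_supp root_mem centre_step
  funct_step pair_full swap_exists refl_mem_stab)

variable {ι : Type} [Fintype ι] [DecidableEq ι] {F : Type*} [Field F]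
variable {t m : ℕ} {D : Fin t → Submodule F (ι → F)} (hD : Cfsg.Geo.IsMDecomposition m D)
variable {M : Subgroup (GL ι F)}
  (hH : Cfsg.Geo.decompositionStabilizer D ⊓ Cfsg.Geo.specialLinear ι F ≤ M)
include hD hH

local notation "P" => proj hD

/-- A functional leaving a member whose component of the centre leaves room. -/
theorem finish_mixed (hm : 2 ≤ m) {a : ι → F} {i r : Fin t} (hir : i ≠ r) (hi : P i a ≠ 0)
    {ψ : Module.Dual F (ι → F)} (h : Has M a ψ) (hr : ψ ∘ₗ P r ≠ 0)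
    (hcase : ψ ∘ₗ P i = 0 ∨ ψ (P i a) ≠ 0) :
    ∃ i r, i ≠ r ∧ ∃ b ∈ D i, b ≠ 0 ∧ ∃ χ : Module.Dual F (ι → F), χ ∘ₗ P r = χ ∧ χ ≠ 0 ∧ Has M b χ := by
  classical
  obtain ⟨y, hy, hya⟩ := exists_not_span hD hm i (P i a)
  obtain ⟨b, hbi, hψb, hba⟩ : ∃ b ∈ D i, ψ b = 0 ∧ b ∉ Submodule.span F {P i a} := by
    rcases hcase with h0 | h0
    · refine ⟨y, hy, ?_, hya⟩
      have := LinearMap.congr_fun h0 y
      rwa [LinearMap.comp_apply, proj_of_mem hD hy, if_pos rfl] at this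
    · refine ⟨y - (ψ y / ψ (P i a)) • P i a, (D i).sub_mem hy ((D i).smul_mem _ (proj_mem hD i a)),
        by rw [map_sub, map_smul, smul_eq_mul, div_mul_cancel₀ _ h0, sub_self], fun h2 => hya ?_⟩
      simpa using Submodule.add_mem _ h2
        (Submodule.smul_mem _ (ψ y / ψ (P i a)) (Submodule.mem_span_singleton_self (P i a)))
  have hb0 : b ≠ 0 := fun e => hba (by rw [e]; exact Submodule.zero_mem _)
  have hab : P i a ∉ Submodule.span F {b} := fun h2 => by
    obtain ⟨s, hs⟩ := Submodule.mem_span_singleton.1 h2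
    have hs0 : s ≠ 0 := fun e => hi (by rw [← hs, e, zero_smul])
    exact hba (Submodule.mem_span_singleton.2 ⟨s⁻¹, by rw [← hs, smul_smul, inv_mul_cancel₀ hs0, one_smul]⟩)
  have h1 := centre_step hD hH h hbi hψb hab
  obtain ⟨z, hz⟩ : ∃ z, ψ (P r z) ≠ 0 := by
    by_contra hno
    push Not at hno
    exact hr (LinearMap.ext fun z => hno z)
  set c := (ψ (P r z))⁻¹ • P r z with hc
  have hcr : c ∈ D r := (D r).smul_mem _ (proj_mem hD r z)
  have hψc : ψ c = 1 := by rw [hc, map_smul, smul_eq_mul, inv_mul_cancel₀ hz]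
  obtain ⟨w, hw, hwc⟩ := exists_not_span hD hm r c
  obtain ⟨χ, hχ, hχw, hχc⟩ := exists_supp hD hw hwc
  refine ⟨i, r, hir, b, hbi, hb0, χ, hχ, fun e => ?_, funct_step hD hH h1 hcr hψc hχ (hχc hcr) ?_⟩
  · rw [e] at hχw; exact zero_ne_one hχw
  · rw [← hχ]; exact apply_other hD hir hbi χ

theorem exists_mixed_two (hm : m = 2) (ht : t = 2) [Fintype F] (hq : 4 ≤ Fintype.card F) {a : ι → F}
    (ha : ∀ j, a ∉ D j) {ψ : Module.Dual F (ι → F)} (h : Has M a ψ) (hψ0 : ψ ≠ 0) :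
    ∃ i r, i ≠ r ∧ ∃ b ∈ D i, b ≠ 0 ∧ ∃ χ : Module.Dual F (ι → F), χ ∘ₗ P r = χ ∧ χ ≠ 0 ∧ Has M b χ := by
  classical
  obtain ⟨o, u, hou, huniv⟩ : ∃ o u : Fin t, o ≠ u ∧ (Finset.univ : Finset (Fin t)) = {o, u} := by
    refine ⟨⟨0, by omega⟩, ⟨1, by omega⟩, by simp, ?_⟩
    ext ⟨v, hv⟩
    simp [Fin.ext_iff]
    omega
  have hm2 : 2 ≤ m := by omega
  have hcard : Fintype.card ι = 4 := by rw [← mul_eq_card hD, hm, ht]
  have hdec : ∀ x, P o x + P u x = x := fun x => by
    have := sum_proj hD x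
    rwa [huniv, Finset.sum_pair hou] at this
  have ha0 : P o a ≠ 0 := fun e => ha u (by
    have := hdec a
    rw [e, zero_add] at this
    rw [← this]; exact proj_mem hD u a)
  have ha1 : P u a ≠ 0 := fun e => ha o (by
    have := hdec a
    rw [e, add_zero] at this
    rw [← this]; exact proj_mem hD o a)
  have hsum : ψ ∘ₗ P o + ψ ∘ₗ P u = ψ := LinearMap.ext fun x => by
    rw [LinearMap.add_apply, LinearMap.comp_apply, LinearMap.comp_apply, ← map_add, hdec]
  by_cases h1 : ψ ∘ₗ P u = 0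
  · exact finish_mixed hD hH hm2 (i := u) (r := o) hou.symm ha1 h
      (fun e => hψ0 (by rw [← hsum, e, h1, add_zero])) (Or.inl h1)
  by_cases h0 : ψ ∘ₗ P o = 0 ∨ ψ (P o a) ≠ 0
  · exact finish_mixed hD hH hm2 (i := o) (r := u) hou ha0 h h1 h0
  push Not at h0
  obtain ⟨h0, h0a⟩ := h0
  have h1a : ψ (P u a) = 0 := by
    have := h.apply_eq
    rw [← hdec a, map_add, h0a, zero_add] at this
    exact this
  -- a vector of value one in each member
  have hy : ∀ j, ψ ∘ₗ P j ≠ 0 → ∃ y ∈ D j, (ψ ∘ₗ P j) y = 1 := fun j hj => by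
    obtain ⟨z, hz⟩ : ∃ z, ψ (P j z) ≠ 0 := by
      by_contra hno
      push Not at hno
      exact hj (LinearMap.ext fun z => hno z)
    refine ⟨(ψ (P j z))⁻¹ • P j z, (D j).smul_mem _ (proj_mem hD j z), ?_⟩
    rw [map_smul, LinearMap.comp_apply, proj_proj hD, smul_eq_mul, inv_mul_cancel₀ hz]
  have hchi : ∀ j, (ψ ∘ₗ P j) ∘ₗ P j = ψ ∘ₗ P j := fun j => by ext x; simp [proj_proj hD]
  obtain ⟨y₁, hy₁, hχy₁⟩ := hy u h1
  by_cases hμ : ∃ μ : Fˣ, (μ : F) ^ 4 ≠ 1
  · obtain ⟨μ, hμ⟩ := hμ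
    let S : GL ι F := Units.map (Matrix.scalar ι).toMonoidHom μ
    have hS : ∀ x, (S : Matrix ι ι F) *ᵥ x = (μ : F) • x := fun x => funext fun r => by
      show (Matrix.diagonal (fun _ => (μ : F)) *ᵥ x) r = _
      rw [mulVec_diagonal, Pi.smul_apply, smul_eq_mul]
    set g := S * refl (ψ ∘ₗ P u) hχy₁ (μ ^ 4)⁻¹ with hg
    have hgM : g ∈ M := by
      refine hH (Subgroup.mem_inf.2 ⟨mul_mem ?_ (refl_mem_stab hD hy₁ (hchi u) hχy₁ _), ?_⟩)
      · refine mem_decompositionStabilizer_of_maps hD 1 fun j x hx => ?_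
        show _ ∈ D j
        rw [hS]; exact (D j).smul_mem _ hx
      · rw [mem_specialLinear_iff, hg, Units.val_mul, Matrix.det_mul, det_refl]
        show (Matrix.diagonal (fun _ : ι => (μ : F))).det * _ = 1
        rw [Matrix.det_diagonal, Finset.prod_const, Finset.card_univ, hcard, ← Units.val_pow_eq_pow_val,
          ← Units.val_mul, mul_inv_cancel, Units.val_one]
    have hgx : ∀ x, (g : Matrix ι ι F) *ᵥ x =
        (μ : F) • (x + (((((μ ^ 4)⁻¹ : Fˣ) : F) - 1) * ψ (P u x)) • y₁) := fun x => by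
      rw [hg, Units.val_mul, ← mulVec_mulVec, refl_mulVec, hS, LinearMap.comp_apply]
    have hψy₁ : ψ y₁ = 1 := by
      rw [LinearMap.comp_apply, proj_of_mem hD hy₁, if_pos rfl] at hχy₁; exact hχy₁
    have hχy : ψ (P u y₁) = 1 := hχy₁
    have h2 := h.conj hgM (ψ := (μ : F)⁻¹ • (ψ + ((μ : F) ^ 4 - 1) • (ψ ∘ₗ P u))) fun x => by
      rw [hgx]
      simp only [LinearMap.smul_apply, LinearMap.add_apply, map_smul, map_add, LinearMap.comp_apply,
        smul_eq_mul, hψy₁, hχy, Units.val_inv_eq_inv_val, Units.val_pow_eq_pow_val]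
      field_simp
      ring
    have hga : (g : Matrix ι ι F) *ᵥ a = (μ : F) • a := by
      rw [hgx, h1a, mul_zero, zero_smul, add_zero]
    rw [hga] at h2
    have h3 := (has_smul_swap μ.ne_zero).1 h2
    rw [smul_smul, mul_inv_cancel₀ μ.ne_zero, one_smul] at h3
    have h4 := h3.sub h
    rw [add_sub_cancel_left] at h4
    refine finish_mixed hD hH hm2 (i := o) (r := u) hou ha0 h4 ?_ (Or.inl ?_)
    · rw [LinearMap.smul_comp, hchi u]
      exact smul_ne_zero (sub_ne_zero.2 hμ) h1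
    · refine LinearMap.ext fun x => ?_
      simp [proj_of_mem hD (proj_mem hD o x), hou, hou.symm]
  -- only five field elements remain
  push Not at hμ
  obtain ⟨y₀, hy₀, hχy₀⟩ := hy o h0
  have h5 : (5 : F) = 0 := by
    obtain ⟨ε, hε⟩ := IsCyclic.exists_ofOrder_eq_natCard (α := Fˣ)
    have hc : Nat.card Fˣ = Fintype.card F - 1 := by rw [Nat.card_eq_fintype_card, Fintype.card_units]
    have e : ε ^ 4 = 1 := Units.ext (by rw [Units.val_pow_eq_pow_val, Units.val_one]; exact hμ ε)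
    have hd : Fintype.card F - 1 ∣ 4 := hc ▸ hε ▸ orderOf_dvd_of_pow_eq_one e
    have hle := Nat.le_of_dvd (by norm_num) hd
    have h4 : Fintype.card F = 5 := by
      rcases (show Fintype.card F = 4 ∨ Fintype.card F = 5 by omega) with h | h
      · rw [h] at hd; norm_num at hd
      · exact h
    have := FiniteField.cast_card_eq_zero F
    rw [h4] at this
    exact_mod_cast this
  have h2 : (2 : F) ≠ 0 := fun e => one_ne_zero (show (1 : F) = 0 by linear_combination h5 - 2 * e)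
  have h3 : (3 : F) ≠ 0 := fun e => one_ne_zero (show (1 : F) = 0 by linear_combination 2 * e - h5)
  set δ : Fˣ := Units.mk0 2 h2 with hδ
  set g := refl (ψ ∘ₗ P o) hχy₀ δ * refl (ψ ∘ₗ P u) hχy₁ δ⁻¹ with hg
  have hgM : g ∈ M := by
    refine hH (Subgroup.mem_inf.2 ⟨mul_mem (refl_mem_stab hD hy₀ (hchi o) hχy₀ _)
      (refl_mem_stab hD hy₁ (hchi u) hχy₁ _), ?_⟩)
    rw [mem_specialLinear_iff, hg, Units.val_mul, Matrix.det_mul, det_refl, det_refl, ← Units.val_mul,
      mul_inv_cancel, Units.val_one]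
  have e01 : P o y₁ = 0 := by rw [proj_of_mem hD hy₁] ; simp [hou, hou.symm]
  have e10 : P u y₀ = 0 := by rw [proj_of_mem hD hy₀] ; simp [hou, hou.symm]
  have e00 : P o y₀ = y₀ := by rw [proj_of_mem hD hy₀] ; simp [hou, hou.symm]
  have e11 : P u y₁ = y₁ := by rw [proj_of_mem hD hy₁] ; simp [hou, hou.symm]
  have k0 : ψ y₀ = 1 := by rw [LinearMap.comp_apply, e00] at hχy₀; exact hχy₀
  have k1 : ψ y₁ = 1 := by rw [LinearMap.comp_apply, e11] at hχy₁; exact hχy₁
  have hgx : ∀ x, (g : Matrix ι ι F) *ᵥ x =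
      x + ((((δ⁻¹ : Fˣ) : F) - 1) * ψ (P u x)) • y₁ + (((δ : F) - 1) * ψ (P o x)) • y₀ := fun x => by
    rw [hg, Units.val_mul, ← mulVec_mulVec, refl_mulVec (ψ ∘ₗ P u), refl_mulVec]
    simp [e01]
  have hga : (g : Matrix ι ι F) *ᵥ a = a := by
    rw [hgx, h1a, h0a] ; simp [hou, hou.symm]
  have h6 := h.conj hgM
    (ψ := ψ + ((δ : F)⁻¹ - 1) • (ψ ∘ₗ P o) + ((δ : F) - 1) • (ψ ∘ₗ P u)) fun x => by
    rw [hgx]
    simp only [LinearMap.smul_apply, LinearMap.add_apply, map_smul, map_add, LinearMap.comp_apply,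
      smul_eq_mul, k0, k1, e00, e01, e10, e11, Units.val_inv_eq_inv_val, map_zero]
    field_simp
    ring
  rw [hga] at h6
  have h7 := (h6.sub h).sub h
  have e : ψ + ((δ : F)⁻¹ - 1) • (ψ ∘ₗ P o) + ((δ : F) - 1) • (ψ ∘ₗ P u) - ψ - ψ =
      ((δ : F)⁻¹ - 2) • (ψ ∘ₗ P o) := by
    conv_lhs => arg 2; rw [← hsum]
    simp only [hδ, Units.val_mk0]
    module
  rw [e] at h7
  refine finish_mixed hD hH hm2 (i := u) (r := o) hou.symm ha1 h7 ?_ (Or.inl ?_)
  · rw [LinearMap.smul_comp, hchi o]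
    refine smul_ne_zero (sub_ne_zero.2 fun e => h3 ?_) h0
    rw [hδ, Units.val_mk0] at e
    field_simp at e
    linear_combination -e
  · refine LinearMap.ext fun x => ?_
    simp [proj_of_mem hD (proj_mem hD u x), hou, hou.symm]

theorem specialLinear_le (hm : 2 ≤ m) (hm2 : m = 2) (ht : t = 2) [Fintype F] (hq : 4 ≤ Fintype.card F) {g : GL ι F}
    (hgM : g ∈ M) (hg : g ∉ Cfsg.Geo.decompositionStabilizer D) :
    Cfsg.Geo.specialLinear ι F ≤ M := by
  classical
  obtain ⟨i, x, hx, hgx⟩ := exists_not_mem_of_not_stabilizer hD hg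
  obtain ⟨y, hy, hyx⟩ := exists_not_span hD hm i x
  obtain ⟨φ, hφ, hφy, hφx⟩ := exists_supp hD hy hyx
  have h1 := (root_mem hD hH hx hφ (hφx hx)).conj' hgM
  obtain ⟨i, r, hir, b, hb, hb0, χ, hχ, hχ0, hbχ⟩ := exists_mixed_two hD hH hm2 ht hq hgx h1 (fun e => by
    have := LinearMap.congr_fun e ((g : Matrix ι ι F) *ᵥ y)
    simp only [LinearMap.comp_apply, Matrix.toLin'_apply, inv_mulVec_mulVec, LinearMap.zero_apply,
      hφy] at this
    exact one_ne_zero this)
  have hpair := pair_full hD hH hm hir hb hb0 hχ hχ0 hbχ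
  have hall : ∀ p s, p ≠ s → ∀ c ∈ D p, ∀ ψ : Module.Dual F (ι → F), ψ ∘ₗ P s = ψ → Has M c ψ := by
    have move : ∀ p s p' s', p ≠ s → (∀ c ∈ D p, ∀ ψ : Module.Dual F (ι → F), ψ ∘ₗ P s = ψ → Has M c ψ) →
        ∀ u v, u ≠ v → Equiv.swap u v p = p' → Equiv.swap u v s = s' →
        ∀ c ∈ D p', ∀ ψ : Module.Dual F (ι → F), ψ ∘ₗ P s' = ψ → Has M c ψ := by
      intro p s p' s' _ hps u v huv hp' hs' c hc ψ hψ
      obtain ⟨k, hk1, hk2, hkD⟩ := swap_exists hD huv
      have hkM : k ∈ M := hH ⟨hk2, hk1⟩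
      have hmaps : ∀ j, (D j).map (Matrix.toLin' (k : Matrix ι ι F)) = D (Equiv.swap u v j) := fun j => by
        refine Submodule.eq_of_le_of_finrank_eq ?_ ?_
        · rintro _ ⟨z, hz, rfl⟩; rw [Matrix.toLin'_apply]; exact hkD j z hz
        · have hinj : Function.Injective (Matrix.toLin' (k : Matrix ι ι F)) := fun z w hzw => by
            rw [Matrix.toLin'_apply, Matrix.toLin'_apply] at hzw
            rw [← inv_mulVec_mulVec k z, hzw, inv_mulVec_mulVec]
          rw [← (Submodule.equivMapOfInjective _ hinj (D j)).finrank_eq, hD.finrank_eq, hD.finrank_eq]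
      obtain ⟨c₀, hc₀, rfl⟩ : c ∈ (D p).map (Matrix.toLin' (k : Matrix ι ι F)) := by
        rw [hmaps, hp']; exact hc
      have h2 := (hps c₀ hc₀ (ψ ∘ₗ Matrix.toLin' (k : Matrix ι ι F)) ?_).conj hkM (ψ := ψ)
        (fun z => by rw [LinearMap.comp_apply, Matrix.toLin'_apply])
      · rwa [Matrix.toLin'_apply]
      · refine LinearMap.ext fun z => ?_
        have h3 := proj_mulVec hD hmaps s z
        rw [hs'] at h3
        simp only [LinearMap.comp_apply, Matrix.toLin'_apply, ← h3]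
        exact LinearMap.congr_fun hψ _
    intro p s hps
    obtain ⟨r', hpr', hr'⟩ : ∃ r', p ≠ r' ∧ ∀ c ∈ D p, ∀ ψ : Module.Dual F (ι → F),
        ψ ∘ₗ P r' = ψ → Has M c ψ := by
      by_cases hip : i = p
      · exact ⟨r, hip ▸ hir, hip ▸ hpair⟩
      · exact ⟨Equiv.swap i p r, fun e => hir ((Equiv.swap i p).injective (by
          rw [Equiv.swap_apply_left]; exact e)), move i r _ _ hir hpair i p hip
            (Equiv.swap_apply_left i p) rfl⟩
    by_cases hrs : r' = s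
    · exact hrs ▸ hr'
    · exact move p r' p s hpr' hr' r' s hrs (Equiv.swap_apply_of_ne_of_ne hpr' hps)
        (Equiv.swap_apply_left r' s)
  refine specialLinear_le_of_full (S := {v | ∃ p, v ∈ D p}) ?_ ?_
  · refine eq_top_iff.2 (le_of_eq_of_le hD.iSup_eq_top.symm (iSup_le fun p v hv => ?_))
    exact Submodule.subset_span ⟨p, hv⟩
  rintro c ⟨p, hc⟩ ψ hψ
  have key : ∀ S : Finset (Fin t), Has M c (∑ j ∈ S, ψ ∘ₗ P j) := by
    intro S
    induction S using Finset.induction_on with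
    | empty => simpa using has_zero_right c
    | insert j S hj ih =>
      rw [Finset.sum_insert hj]
      refine Has.add ?_ ih
      have hjj : (ψ ∘ₗ P j) ∘ₗ P j = ψ ∘ₗ P j := by ext z; simp [proj_proj hD]
      by_cases hjp : j = p
      · refine root_mem hD hH hc ?_ ?_
        · subst hjp; exact hjj
        · subst hjp
          rw [LinearMap.comp_apply, proj_of_mem hD hc, if_pos rfl]; exact hψ
      · exact hall p j (Ne.symm hjp) c hc _ hjj
  convert key Finset.univ using 1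
  refine LinearMap.ext fun z => ?_
  rw [LinearMap.sum_apply]
  conv_lhs => rw [← sum_proj hD z, map_sum]
  rfl

end CfsgLib.SLFour90.PlanesFour
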