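import Cfsg.Agent.SLGeo91.SympSim

/-!
Symplectic similarities are maximal in the special linear group of dimension four.
-/

set_option autoImplicit false
open Cfsg

namespace CfsgLib.SLFour90.SympFour

open Matrix CfsgLib.TransvGL CfsgLib.AltFormTransv
open CfsgLib.SLGeo91.SympSim (Full full_of_mem full_step transv_not_similarity mem_similarity_of)

section

variable {F : Type*} [Field F] {n : ℕ} {f : (Fin n → F) → (Fin n → F) → F}

theorem exists_orth_indep (hf : Cfsg.Geo.IsSymplecticForm f) (hn : 4 ≤ n) (a y : Fin n → F)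
    (hay : f a y = 0 → y ∈ Submodule.span F {a}) :
    ∃ c, f a c = 0 ∧ f c y = 0 ∧ c ∉ Submodule.span F {a} ∧ c ∉ Submodule.span F {y} := by
  set L := LinearMap.prod (pair hf a) (pair hf y)
  have h1 := LinearMap.finrank_range_add_finrank_ker L
  have h2 : Module.finrank F (LinearMap.range L) ≤ 2 :=
    (Submodule.finrank_le _).trans (by simp)
  have h3 : Module.finrank F (Fin n → F) = n := Module.finrank_fin_fun F
  have h4 : ¬ (LinearMap.ker L ≤ Submodule.span F {a, y}) := fun hle => by
    classical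
    have h5 := Submodule.finrank_mono hle
    have hcard : ∀ x : Fin n → F, Module.finrank F (Submodule.span F ({x} : Set (Fin n → F))) ≤ 1 := fun x =>
      (finrank_span_le_card _).trans (by simp)
    by_cases hy : y ∈ Submodule.span F {a}
    · have hsub : Submodule.span F ({a, y} : Set (Fin n → F)) ≤ Submodule.span F {a} := by
        rw [Submodule.span_le, Set.insert_subset_iff, Set.singleton_subset_iff]
        exact ⟨Submodule.mem_span_singleton_self a, hy⟩
      have h7 := Submodule.finrank_mono hsub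
      have := hcard a
      omega
    · have h6 : Module.finrank F (Submodule.span F ({a, y} : Set (Fin n → F))) ≤ 2 := by
        have e := (finrank_span_finset_le_card (R := F) ({a, y} : Finset (Fin n → F))).trans
          (Finset.card_le_two)
        rw [Finset.coe_pair] at e
        exact e
      have heq := Submodule.eq_of_le_of_finrank_le hle (by omega)
      have ha : a ∈ LinearMap.ker L := heq ▸ Submodule.subset_span (by simp)
      rw [LinearMap.mem_ker] at ha
      simp [L, LinearMap.prod_apply, Function.prod, Prod.ext_iff] at ha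
      exact hy (hay ha.2)
  obtain ⟨c, hcL, hc⟩ := SetLike.not_le_iff_exists.1 h4
  rw [LinearMap.mem_ker] at hcL
  simp [L, LinearMap.prod_apply, Function.prod, Prod.ext_iff] at hcL
  exact ⟨c, orth_comm hf hcL.1, hcL.2,
    fun h => hc (Submodule.span_mono (by simp) h),
    fun h => hc (Submodule.span_mono (by simp) h)⟩

theorem all_transv (hf : Cfsg.Geo.IsSymplecticForm f) (hn : 4 ≤ n) {M : Subgroup (GL (Fin n) F)}
    (hM : ∀ v c, sympT hf v c ∈ M) {a b : Fin n → F} (h : Mem hf M a b)
    (hb : b ∉ Submodule.span F {a}) (ha0 : a ≠ 0)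
    (φ : Module.Dual F (Fin n → F)) (v : Fin n → F) (hv : φ v = 0) : transv hv ∈ M := by
  have hfa := full_of_mem hf hM h hb
  by_cases hv0 : v = 0
  · have : transv hv = 1 := ext_mulVec fun x => by simp [transv_mulVec, hv0]
    rw [this]; exact one_mem M
  have hfv : Full hf M v := by
    by_cases hav : f a v = 0 ∧ v ∉ Submodule.span F {a}
    · exact full_step hf hM hfa ha0 hav.1 hav.2
    obtain ⟨c, hac, hcv, hca, hcv'⟩ := exists_orth_indep hf hn a v (fun h0 => by_contra fun h' => hav ⟨h0, h'⟩)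
    have hc0 : c ≠ 0 := fun h0 => hca (by simp [h0])
    have hfc := full_step hf hM hfa ha0 hac hca
    have hvc : v ∉ Submodule.span F {c} := by
      intro h'
      obtain ⟨s, hs⟩ := Submodule.mem_span_singleton.1 h'
      have hs0 : s ≠ 0 := fun h0 => hv0 (by simp [← hs, h0])
      exact hcv' (Submodule.mem_span_singleton.2
        ⟨s⁻¹, by rw [← hs, smul_smul, inv_mul_cancel₀ hs0, one_smul]⟩)
    exact full_step hf hM hfc hc0 hcv hvc
  obtain ⟨d, hd⟩ := exists_pair_eq hf φ
  subst hd
  exact (hfv d hv).2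

end

theorem isMaximal {F : Type*} [Field F] [Fintype F] (n : ℕ) (hn : 4 ≤ n) (f : (Fin n → F) → (Fin n → F) → F) (hf : Cfsg.Geo.IsSymplecticForm f) : Cfsg.Geo.IsMaximalIn (Cfsg.Geo.specialLinear (Fin n) F) (Cfsg.Geo.similarityGroup f ⊓ Cfsg.Geo.specialLinear (Fin n) F) := by
  classical
  refine ⟨lt_of_le_not_ge inf_le_right fun hle => ?_, fun M hM1 hM2 => ?_⟩
  · have ha0 : (Pi.single (⟨0, by omega⟩ : Fin n) 1 : Fin n → F) ≠ 0 := by simp
    obtain ⟨b, hab, -, hb, -⟩ := exists_orth_indep hf hn (Pi.single (⟨0, by omega⟩ : Fin n) 1)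
      (Pi.single (⟨0, by omega⟩ : Fin n) 1) (fun _ => Submodule.mem_span_singleton_self _)
    exact transv_not_similarity hf ha0 (h := hab) hb (hle (transv_mem_specialLinear hab)).1
  by_cases heq : M = Geo.similarityGroup f ⊓ Geo.specialLinear (Fin n) F
  · exact Or.inl heq
  refine Or.inr (le_antisymm hM2 ?_)
  obtain ⟨g, hgM, hg⟩ := SetLike.not_le_iff_exists.1 fun h => heq (le_antisymm h hM1)
  have hsympT : ∀ v c, sympT hf v c ∈ M := fun v c =>
    hM1 ⟨sympT_mem_similarity hf v c, sympT_mem_specialLinear hf v c⟩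
  suffices hex : ∃ a b, Mem hf M a b ∧ b ∉ Submodule.span F {a} ∧ a ≠ 0 by
    obtain ⟨a, b, h, hb, ha⟩ := hex
    exact specialLinear_le_of_transv_mem M (all_transv hf hn hsympT h hb ha)
  by_contra hno
  push Not at hno
  apply hg
  refine ⟨mem_similarity_of hf fun v => ?_, hM2 hgM⟩
  by_cases hv : v = 0
  · exact ⟨0, fun x => by simp [hv, zero_right hf]⟩
  have hgv : (g : Matrix (Fin n) (Fin n) F) *ᵥ v ≠ 0 := fun h => hv (by
    simpa [inv_mulVec_mulVec] using congrArg (((g⁻¹ : GL (Fin n) F) : Matrix (Fin n) (Fin n) F) *ᵥ ·) h)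
  -- the functional of the conjugate of the transvection at v
  obtain ⟨b, hb⟩ := exists_pair_eq hf
    ((pair hf v).comp (Matrix.mulVecLin ((g⁻¹ : GL (Fin n) F) : Matrix (Fin n) (Fin n) F)))
  have hbx : ∀ x, f ((g : Matrix (Fin n) (Fin n) F) *ᵥ x) b = f x v := fun x => by
    simpa [inv_mulVec_mulVec] using LinearMap.congr_fun hb ((g : Matrix (Fin n) (Fin n) F) *ᵥ x)
  have hbv : pair hf b ((g : Matrix (Fin n) (Fin n) F) *ᵥ v) = 0 := by
    rw [pair_apply, hbx, hf.alternating]
  have hmem : Mem hf M ((g : Matrix (Fin n) (Fin n) F) *ᵥ v) b := by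
    refine ⟨hbv, ?_⟩
    rw [← conj_transv g (φ := pair hf ((1 : F) • v)) (by rw [one_smul, pair_apply, hf.alternating])
      hbv rfl (fun x => by rw [one_smul, pair_apply, pair_apply, hbx])]
    exact M.mul_mem (M.mul_mem hgM (hsympT v 1)) (M.inv_mem hgM)
  have hspan : b ∈ Submodule.span F {(g : Matrix (Fin n) (Fin n) F) *ᵥ v} := by
    by_contra hns
    exact hgv (hno _ _ hmem hns)
  obtain ⟨t, rfl⟩ := Submodule.mem_span_singleton.1 hspan
  have ht : t ≠ 0 := fun h0 => by
    obtain ⟨x, hx⟩ := (hf.nondegenerate v hv).1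
    exact hx (by rw [← hbx x, h0, zero_smul, zero_right hf])
  exact ⟨t⁻¹, fun x => by rw [← hbx x, hf.bilinear.smul_right, ← mul_assoc, inv_mul_cancel₀ ht, one_mul]⟩

end CfsgLib.SLFour90.SympFour
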