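import Cfsg.Agent.SLGeo91.UnitSim

/-!
Unitary similarities are maximal in the special linear group of dimension four.
-/

set_option autoImplicit false
open Cfsg

namespace CfsgLib.SLFour90.UnitFour

section

open Matrix CfsgLib.TransvGL CfsgLib.UnitCentres CfsgLib.SLGeo91.UnitSim

variable {ι : Type} [Fintype ι] [DecidableEq ι] {F : Type*} [Field F]
variable {σ : F ≃+* F} {f : (ι → F) → (ι → F) → F}
variable {hf : Cfsg.Geo.IsUnitaryForm σ f} {M : Subgroup (GL ι F)}

/-- A hyperbolic pair spans a nondegenerate plane. -/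
theorem gram_two {e e' : ι → F} (he : f e e = 0) (he' : f e' e' = 0) (h : f e e' = 1)
    {hf : Cfsg.Geo.IsUnitaryForm σ f} [DecidableEq (ι → F)] :
    ∀ x ∈ Submodule.span F (({e, e'} : Finset (ι → F)) : Set (ι → F)),
      (∀ w ∈ ({e, e'} : Finset (ι → F)), f x w = 0) → x = 0 := by
  intro x hx hx0
  rw [Finset.coe_pair, Submodule.mem_span_pair] at hx
  obtain ⟨p, r, rfl⟩ := hx
  have h' : f e' e = 1 := by rw [hf.herm, h, map_one]
  have e1 := hx0 e (by simp)
  have e2 := hx0 e' (by simp)
  simp only [hf.add_left, hf.smul_left, he, he', h, h', mul_zero, mul_one, zero_add, add_zero] at e1 e2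
  rw [e1, e2, zero_smul, zero_smul, add_zero]

/-- A hyperbolic pair and an orthogonal anisotropic vector span a nondegenerate space. -/
theorem gram_three {e e' a : ι → F} (he : f e e = 0) (he' : f e' e' = 0) (h : f e e' = 1) (h' : f e' e = 1)
    (hea : f e a = 0) (he'a : f e' a = 0) (ha : f a a ≠ 0)
    {hf : Cfsg.Geo.IsUnitaryForm σ f} [DecidableEq (ι → F)] :
    ∀ x ∈ Submodule.span F (({e, e', a} : Finset (ι → F)) : Set (ι → F)),
      (∀ w ∈ ({e, e', a} : Finset (ι → F)), f x w = 0) → x = 0 := by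
  intro x hx hx0
  rw [Finset.coe_insert, Finset.coe_pair, Submodule.mem_span_insert] at hx
  obtain ⟨p, y, hy, rfl⟩ := hx
  obtain ⟨r, s, rfl⟩ := Submodule.mem_span_pair.1 hy
  have e1 := hx0 e (by simp)
  have e2 := hx0 e' (by simp)
  have e3 := hx0 a (by simp)
  simp only [hf.add_left, hf.smul_left, he, he', h, h', hea, he'a, orth_comm hf hea, orth_comm hf he'a,
    mul_zero, mul_one, zero_add, add_zero] at e1 e2 e3
  have e3' := (mul_eq_zero.1 e3).resolve_right ha
  rw [e1, e2, e3', zero_smul, zero_smul, zero_smul, add_zero, add_zero]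

/-- Two orthogonal anisotropic vectors span a nondegenerate plane. -/
theorem gram_pair {a x : ι → F} (ha : f a a ≠ 0) (hx : f x x ≠ 0) (hax : f a x = 0)
    {hf : Cfsg.Geo.IsUnitaryForm σ f} [DecidableEq (ι → F)] :
    ∀ y ∈ Submodule.span F (({a, x} : Finset (ι → F)) : Set (ι → F)),
      (∀ w ∈ ({a, x} : Finset (ι → F)), f y w = 0) → y = 0 := by
  intro y hy hy0
  rw [Finset.coe_pair, Submodule.mem_span_pair] at hy
  obtain ⟨p, r, rfl⟩ := hy
  have e1 := hy0 a (by simp)
  have e2 := hy0 x (by simp)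
  simp only [hf.add_left, hf.smul_left, hax, orth_comm hf hax, mul_zero, zero_add, add_zero] at e1 e2
  rw [(mul_eq_zero.1 e1).resolve_right ha, (mul_eq_zero.1 e2).resolve_right hx, zero_smul, zero_smul, add_zero]

section Generate

variable [Finite F] (hn : Fintype.card ι = 4)
include hn

/-- A vector of norm one orthogonal to fewer than four vectors spanning a nondegenerate space. -/
theorem exists_unit_orth_gram (hf : Cfsg.Geo.IsUnitaryForm σ f) (S : Finset (ι → F)) (hS : S.card < 4)
    (hg : ∀ x ∈ Submodule.span F (S : Set (ι → F)), (∀ w ∈ S, f x w = 0) → x = 0) :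
    ∃ u, (∀ v ∈ S, f u v = 0) ∧ f u u = 1 := by
  obtain ⟨u, hu, hu0⟩ : ∃ u, (∀ v ∈ S, f u v = 0) ∧ f u u ≠ 0 := by
    by_contra hno
    push Not at hno
    let L : (ι → F) →ₗ[F] (S → F) := LinearMap.pi fun v => upair hf (v : ι → F)
    have hker : ∀ x, x ∈ LinearMap.ker L ↔ ∀ v ∈ S, f x v = 0 := by
      intro x
      rw [LinearMap.mem_ker, funext_iff]
      exact ⟨fun hx v hv => hx ⟨v, hv⟩, fun hx v => hx v v.2⟩
    have horth : ∀ x ∈ LinearMap.ker L, ∀ y ∈ LinearMap.ker L, f x y = 0 := fun x hx y hy =>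
      orth_of_isotropic hf (fun z hz => hno z ((hker z).1 hz)) hx hy
    have hbot : LinearMap.ker L = ⊥ := by
      refine (Submodule.eq_bot_iff _).2 fun x hx => hg x ?_ ((hker x).1 hx)
      by_contra hxS
      obtain ⟨d, hd, hxd⟩ := exists_orth_sep hf hxS
      exact hxd (horth x hx d ((hker d).2 fun v hv => orth_comm hf (hd v (Submodule.subset_span hv))))
    have h1 := LinearMap.finrank_range_add_finrank_ker L
    have h2 : Module.finrank F (LinearMap.range L) ≤ S.card :=
      (Submodule.finrank_le _).trans (by simp)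
    have h3 : Module.finrank F (ι → F) = Fintype.card ι := Module.finrank_fintype_fun_eq_card F
    rw [hbot, finrank_bot] at h1
    omega
  obtain ⟨l, hl⟩ := exists_norm hf (r := (f u u)⁻¹) (by rw [map_inv₀, norm_fixed hf])
  refine ⟨l • u, fun v hv => by rw [hf.smul_left, hu v hv, mul_zero], ?_⟩
  rw [hf.smul_left, smul_right hf, ← mul_assoc, hl, inv_mul_cancel₀ hu0]

omit hn in
/-- A scalar of norm one different from one. -/
theorem exists_norm_one_ne (hf : Cfsg.Geo.IsUnitaryForm σ f) : ∃ w : F, w * σ w = 1 ∧ w ≠ 1 := by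
  obtain ⟨x, hx⟩ : ∃ x, σ x ≠ x := by
    by_contra h
    push Not at h
    exact hf.ne_refl (RingEquiv.ext h)
  have hx0 : x ≠ 0 := fun e => hx (by rw [e, map_zero])
  refine ⟨σ x / x, ?_, fun e => hx (by rwa [div_eq_one_iff_eq hx0] at e)⟩
  rw [map_div₀, hf.involutive]
  have : σ x ≠ 0 := by simpa using hx0
  field_simp

omit hn in
/-- Isotropic vectors not orthogonal to two vectors, from one for each. -/
theorem exists_combine (hf : Cfsg.Geo.IsUnitaryForm σ f) {S : Submodule F (ι → F)} {v w e1 e2 : ι → F}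
    (h1 : e1 ∈ S) (h2 : e2 ∈ S) (h11 : f e1 e1 = 0) (h22 : f e2 e2 = 0) (hv : f v e1 ≠ 0) (hw : f w e2 ≠ 0) :
    ∃ e ∈ S, f e e = 0 ∧ f v e ≠ 0 ∧ f w e ≠ 0 := by
  by_cases hw1 : f w e1 = 0
  swap
  · exact ⟨e1, h1, h11, hv, hw1⟩
  by_cases hv2 : f v e2 = 0
  swap
  · exact ⟨e2, h2, h22, hv2, hw⟩
  obtain ⟨c, hc0, hc⟩ := exists_traceZero hf
  obtain ⟨t, ht0, ht⟩ : ∃ t, t ≠ 0 ∧ t * f e2 e1 + σ t * f e1 e2 = 0 := by
    by_cases h21 : f e2 e1 = 0
    · exact ⟨1, one_ne_zero, by rw [h21, orth_comm hf h21, mul_zero, mul_zero, add_zero]⟩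
    · refine ⟨c / f e2 e1, div_ne_zero hc0 h21, ?_⟩
      rw [div_mul_cancel₀ _ h21, map_div₀, hf.herm e1 e2, div_mul_cancel₀ _ ?_, hc]
      simpa using h21
  refine ⟨e1 + t • e2, S.add_mem h1 (S.smul_mem t h2), ?_, ?_, ?_⟩
  · rw [norm_add_smul hf, h11, h22]
    linear_combination ht
  · rw [add_right hf, smul_right hf, hv2, mul_zero, add_zero]; exact hv
  · rw [add_right hf, smul_right hf, hw1, zero_add]
    exact mul_ne_zero (by simpa using ht0) hw

/-- An isotropic vector not orthogonal to a given one and orthogonal to an anisotropic one. -/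
theorem exists_iso_sep (hf : Cfsg.Geo.IsUnitaryForm σ f) {a y : ι → F} (ha : f a a ≠ 0)
    (hy : y ∉ Submodule.span F {a}) : ∃ e, f e e = 0 ∧ f e a = 0 ∧ f y e ≠ 0 := by
  classical
  obtain ⟨d, hd, hd'⟩ := exists_orth_sep hf hy
  have had : f a d = 0 := hd a (Submodule.mem_span_singleton_self a)
  have hda := orth_comm hf had
  by_cases hdd : f d d = 0
  · exact ⟨d, hdd, hda, hd'⟩
  obtain ⟨u, hu, huu⟩ := exists_unit_orth_gram hn hf {a, d} (Finset.card_le_two.trans_lt (by norm_num))
    (gram_pair (hf := hf) ha hdd had)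
  obtain ⟨l, hl⟩ := exists_norm hf (r := -f d d) (by rw [map_neg, norm_fixed hf])
  obtain ⟨w, hw, hw1⟩ := exists_norm_one_ne hf
  have hiso : ∀ k : F, k * σ k = -f d d → f (d + k • u) (d + k • u) = 0 ∧ f (d + k • u) a = 0 := fun k hk => by
    refine ⟨?_, by rw [hf.add_left, hf.smul_left, hda, hu a (by simp), mul_zero, add_zero]⟩
    rw [norm_add_smul hf, huu, orth_comm hf (hu d (by simp)), hu d (by simp)]
    linear_combination hk
  by_cases h1 : f y (d + l • u) = 0
  swap
  · exact ⟨_, (hiso l hl).1, (hiso l hl).2, h1⟩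
  obtain ⟨h2, h3⟩ := hiso (w * l) (by rw [map_mul]; linear_combination hl + (l * σ l) * hw)
  refine ⟨_, h2, h3, fun h4 => hd' ?_⟩
  rw [add_right hf, smul_right hf] at h1 h4
  rw [map_mul] at h4
  have hw' : σ w - 1 ≠ 0 := sub_ne_zero.2 fun e => hw1 (by
    have := congrArg σ e
    rwa [hf.involutive, map_one] at this)
  have : (σ w - 1) * (σ l * f y u) = 0 := by linear_combination h4 - h1
  linear_combination h1 - (mul_eq_zero.1 this).resolve_left hw'

/-- An isotropic vector not orthogonal to two given ones. -/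
theorem exists_isotropic_nonorth (hf : Cfsg.Geo.IsUnitaryForm σ f) {v w : ι → F} (hv : v ≠ 0)
    (hw : w ≠ 0) : ∃ e, f e e = 0 ∧ f e v ≠ 0 ∧ f e w ≠ 0 := by
  classical
  have one : ∀ x : ι → F, x ≠ 0 → ∃ e, f e e = 0 ∧ f x e ≠ 0 := by
    intro x hx
    obtain ⟨u, hu, huu⟩ := exists_unit_orth hf {x} (by simp [hn])
    obtain ⟨e, he, -, hxe⟩ := exists_iso_sep hn hf (a := u) (y := x) (by rw [huu]; exact one_ne_zero) (fun hm => by
      obtain ⟨k, rfl⟩ := Submodule.mem_span_singleton.1 hm
      have h1 := hu (k • u) (by simp)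
      rw [smul_right hf, huu, mul_one] at h1
      exact hx (by rw [show k = 0 by simpa using h1, zero_smul]))
    exact ⟨e, he, hxe⟩
  obtain ⟨e1, h11, hv1⟩ := one v hv
  obtain ⟨e2, h22, hw2⟩ := one w hw
  obtain ⟨e, -, he, h1, h2⟩ := exists_combine hf (S := ⊤) (by trivial) (by trivial) h11 h22 hv1 hw2
  exact ⟨e, he, fun h => h1 (orth_comm hf h), fun h => h2 (orth_comm hf h)⟩

theorem mem_of_chain (hU : ∀ v (hv : f v v = 0) c, c + σ c = 0 → uT hf hv c ∈ M) {a b z1 : ι → F} (ha : f a a ≠ 0)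
    (h : Mem hf M a b) (hz1 : f z1 z1 = 0) (hz1a : f z1 a = 0) (hb : f b z1 ≠ 0) (t : F) :
    Mem hf M a (t • z1) := by
  classical
  obtain ⟨c, hc0, hc⟩ := exists_traceZero hf
  have step : ∀ b z, Mem hf M a b → f z z = 0 → f z a = 0 → Mem hf M a ((c * f b z) • z) := by
    intro b z hb hz hza
    have h1 := hb.image (hU z hz c hc) (uT_iso hf hz hc)
    rw [uT_mulVec, uT_mulVec, orth_comm hf hza, mul_zero, zero_smul, add_zero] at h1
    simpa using h1.sub hb
  have hspan : z1 ∉ Submodule.span F {a} := by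
    intro hm
    obtain ⟨k, rfl⟩ := Submodule.mem_span_singleton.1 hm
    rw [smul_right hf, orth_comm hf h.orth, mul_zero] at hb
    exact hb rfl
  obtain ⟨d, hd, hd'⟩ := exists_orth_sep hf hspan
  have hda : f d a = 0 := orth_comm hf (hd a (Submodule.mem_span_singleton_self a))
  obtain ⟨r, hr⟩ := exists_isotropic_shift hf hz1 hd'
  have hne : f z1 (d + r • z1) ≠ 0 := by
    rw [add_right hf, smul_right hf, hz1, mul_zero, add_zero]; exact hd'
  set z2 := σ (f z1 (d + r • z1))⁻¹ • (d + r • z1) with hz2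
  have h12 : f z1 z2 = 1 := by rw [hz2, smul_right hf, hf.involutive, inv_mul_cancel₀ hne]
  have h22 : f z2 z2 = 0 := by rw [hz2, hf.smul_left, smul_right hf, hr, mul_zero, mul_zero]
  have h2a : f z2 a = 0 := by
    rw [hz2, hf.smul_left, hf.add_left, hf.smul_left, hda, hz1a, mul_zero, add_zero, mul_zero]
  have h21 : f z2 z1 = 1 := by rw [hf.herm, h12, map_one]
  set α := t / (c * c * c * c * f b z1) with hα
  obtain ⟨u, hu, huu⟩ := exists_unit_orth_gram hn hf {z1, z2, a}
    (Finset.card_le_three.trans_lt (by norm_num)) (gram_three (hf := hf) hz1 h22 h12 h21 hz1a h2a ha)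
  obtain ⟨l, hl⟩ := exists_norm hf (r := -f (α • z2 + z1) (α • z2 + z1)) (by rw [map_neg, norm_fixed hf])
  set z := l • u with hzdef
  have hz : ∀ w ∈ ({z1, z2, a} : Finset (ι → F)), f z w = 0 := fun w hw => by
    rw [hzdef, hf.smul_left, hu w hw, mul_zero]
  have hpu : f u (α • z2 + z1) = 0 := by
    rw [add_right hf, smul_right hf, hu z2 (by simp), hu z1 (by simp), mul_zero, add_zero]
  have hzz : f (α • z2 + z1 + z) (α • z2 + z1 + z) = 0 := by
    rw [hzdef, norm_add_smul hf, huu, hpu, orth_comm hf hpu]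
    linear_combination hl
  set z3 := α • z2 + z1 + z with hz3
  have h23 : f z2 z3 = 1 := by
    rw [hz3, add_right hf, add_right hf, smul_right hf, h22, h21, orth_comm hf (hz z2 (by simp))]
    ring
  have h31 : f z3 z1 = α := by
    rw [hz3, hf.add_left, hf.add_left, hf.smul_left, h21, hz1, hz z1 (by simp)]; ring
  have h3a : f z3 a = 0 := by
    rw [hz3, hf.add_left, hf.add_left, hf.smul_left, h2a, hz1a, hz a (by simp)]; ring
  have m1 := step b z1 h hz1 hz1a
  have m2 := step _ z2 m1 h22 h2a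
  rw [hf.smul_left, h12, mul_one] at m2
  have m3 := step _ z3 m2 hzz h3a
  rw [hf.smul_left, h23, mul_one] at m3
  have m4 := step _ z1 m3 hz1 hz1a
  rw [hf.smul_left, h31] at m4
  have e : c * (c * (c * (c * f b z1)) * α) = t := by
    rw [hα, show c * (c * (c * f b z1)) = c * c * c * f b z1 by ring]
    field_simp
  rwa [e] at m4

theorem full_of_mem_four (hU : ∀ v (hv : f v v = 0) c, c + σ c = 0 → uT hf hv c ∈ M) {a b : ι → F}
    (haa : f a a ≠ 0) (h : Mem hf M a b) (hb : b ∉ Submodule.span F {a}) : Full hf M a := by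
  classical
  have iso_case : ∀ z, f z z = 0 → f z a = 0 → ∀ t : F, Mem hf M a (t • z) := by
    intro z hz hza t
    by_cases hz0 : z = 0
    · rw [hz0, smul_zero]; exact h.zero_right_of
    have hzs : z ∉ Submodule.span F {a} := fun hm => by
      obtain ⟨k, rfl⟩ := Submodule.mem_span_singleton.1 hm
      rw [hf.smul_left, mul_eq_zero] at hza
      exact hz0 (by rw [hza.resolve_right haa, zero_smul])
    obtain ⟨e1, h11, h1a, hb1⟩ := exists_iso_sep hn hf haa hb
    obtain ⟨e2, h22, h2a, hz2⟩ := exists_iso_sep hn hf haa hzs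
    obtain ⟨e, hea, hee, hbe, hze⟩ := exists_combine hf (S := LinearMap.ker (upair hf a))
      (by simpa using h1a) (by simpa using h2a) h11 h22 hb1 hz2
    have m1 := mem_of_chain hn hU haa h hee (by simpa using hea) hbe 1
    rw [one_smul] at m1
    exact mem_of_chain hn hU haa m1 hz hza (fun e' => hze (orth_comm hf e')) t
  intro x hx
  by_cases hxx : f x x = 0
  · simpa using iso_case x hxx (orth_comm hf hx) 1
  obtain ⟨u, hu, huu⟩ := exists_unit_orth_gram hn hf {a, x} (Finset.card_le_two.trans_lt (by norm_num))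
    (gram_pair (hf := hf) haa hxx hx)
  obtain ⟨l, hl⟩ := exists_norm hf (r := -f x x) (by rw [map_neg, norm_fixed hf])
  obtain ⟨w, hw, hw1⟩ := exists_norm_one_ne hf
  have hiso : ∀ k : F, k * σ k = -f x x → f (x + k • u) (x + k • u) = 0 ∧ f (x + k • u) a = 0 := fun k hk => by
    refine ⟨?_, by rw [hf.add_left, hf.smul_left, orth_comm hf hx, hu a (by simp), mul_zero, add_zero]⟩
    rw [norm_add_smul hf, huu, hu x (by simp), orth_comm hf (hu x (by simp))]
    linear_combination hk
  obtain ⟨a1, b1⟩ := hiso l hl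
  obtain ⟨a2, b2⟩ := hiso (w * l) (by rw [map_mul]; linear_combination hl + (l * σ l) * hw)
  -- `x` is a combination of the two isotropic vectors
  have hw' : w - 1 ≠ 0 := sub_ne_zero.2 hw1
  have m1 := iso_case _ a1 b1 (w / (w - 1))
  have m2 := iso_case _ a2 b2 (-(1 / (w - 1)))
  have e : (w / (w - 1)) • (x + l • u) + (-(1 / (w - 1))) • (x + (w * l) • u) = x := by
    match_scalars <;> field_simp <;> ring
  exact e ▸ m1.add m2

theorem all_mem_four
    (hH : ∀ g, Iso f g → g ∈ Cfsg.Geo.specialLinear ι F → g ∈ M) {a : ι → F} (ha : f a a ≠ 0)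
    (h : Full hf M a) {a' b : ι → F} (hab : f a' b = 0) : Mem hf M a' b := by
  classical
  have ha0 : a ≠ 0 := fun e => ha (by rw [e, zero_left hf])
  -- transitivity on vectors of one norm
  have move : ∀ y, y ≠ 0 → ∀ l : F, l ≠ 0 → f (l • a) (l • a) = f y y → Full hf M y := by
    intro y hy l hl0 hN
    obtain ⟨u, hu, huu⟩ := exists_unit_orth hf {y} (by simp [hn])
    have hla : l • a ≠ 0 := smul_ne_zero hl0 ha0
    let X := Submodule.span F {l • a}
    let e := LinearEquiv.toSpanNonzeroSingleton F (ι → F) (l • a) hla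
    let φ : X →ₗ[F] (ι → F) := (LinearMap.toSpanSingleton F (ι → F) y) ∘ₗ e.symm.toLinearMap
    have hx : ∀ x : X, (x : ι → F) = e.symm x • (l • a) ∧ φ x = e.symm x • y := fun x => by
      refine ⟨?_, rfl⟩
      conv_lhs => rw [← e.apply_symm_apply x]
      rfl
    have hinj : Function.Injective φ := fun p q hpq => by
      rw [(hx p).2, (hx q).2] at hpq
      exact e.symm.injective (smul_left_injective F hy hpq)
    obtain ⟨g, hg, hgs, hgx⟩ := exists_iso_special hf X φ hinj (fun p q => by
      rw [(hx p).2, (hx q).2, (hx p).1, (hx q).1, hf.smul_left, smul_right hf, ← hN,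
        hf.smul_left _ (l • a), smul_right hf _ _ (l • a)]) huu (fun p => by
      rw [(hx p).2, hf.smul_left, orth_comm hf (hu y (by simp)), mul_zero])
    have h1 := (h.smul l).image (hH g hg hgs) hg
    have h2 : (g : Matrix ι ι F) *ᵥ (l • a) = y := by
      rw [hgx ⟨l • a, Submodule.mem_span_singleton_self _⟩, (hx _).2]
      have : e.symm ⟨l • a, Submodule.mem_span_singleton_self _⟩ = 1 := by
        rw [LinearEquiv.symm_apply_eq]
        apply Subtype.ext
        simp [e]
      rw [this, one_smul]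
    exact h2 ▸ h1
  have haniso : ∀ y, f y y ≠ 0 → f y b = 0 → Mem hf M y b := fun y hy hyb => by
    obtain ⟨l, hl⟩ := exists_norm hf (r := f y y / f a a)
      (by rw [map_div₀, norm_fixed hf, norm_fixed hf])
    refine move y (fun e => hy (by rw [e, zero_left hf])) l (fun e => ?_) ?_ b hyb
    · rw [e, zero_mul, eq_comm, div_eq_zero_iff] at hl
      exact hl.elim hy ha
    · rw [hf.smul_left, smul_right hf, ← mul_assoc, hl, div_mul_cancel₀ _ ha]
  by_cases hy : f a' a' = 0
  · obtain ⟨u, hu, huu⟩ := exists_aniso_orth hf {b} (by simp [hn])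
    have hub : f u b = 0 := hu b (by simp)
    obtain ⟨t, ht0, ht⟩ : ∃ t : F, t ≠ 0 ∧ f (a' + t • u) (a' + t • u) ≠ 0 := by
      by_cases h0 : f a' u = 0
      · refine ⟨1, one_ne_zero, ?_⟩
        rw [norm_add_smul hf, hy, h0, orth_comm hf h0]
        simpa using huu
      · refine ⟨-(f a' u / f u u), neg_ne_zero.2 (div_ne_zero h0 huu), ?_⟩
        rw [norm_add_smul hf, hy, map_neg, map_div₀, norm_fixed hf, ← hf.herm u a',
          show (0 : F) + -(f u a' / f u u) * f a' u + -(f a' u / f u u) * f u a' +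
              -(f a' u / f u u) * -(f u a' / f u u) * f u u = -(f a' u * f u a' / f u u) by field_simp; ring]
        exact neg_ne_zero.2 (div_ne_zero (mul_ne_zero h0 fun e => h0 (orth_comm hf e)) huu)
    have m1 := haniso (a' + t • u) ht (by rw [hf.add_left, hab, hf.smul_left, hub, mul_zero, add_zero])
    have m2 := haniso ((-t) • u) (by
      rw [hf.smul_left, smul_right hf, map_neg]
      exact mul_ne_zero (neg_ne_zero.2 ht0) (mul_ne_zero (neg_ne_zero.2 (by simpa using ht0)) huu))
      (by rw [hf.smul_left, hub, mul_zero])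
    have h3 := m1.add_left m2
    rwa [neg_smul, add_neg_cancel_right] at h3
  · exact haniso a' hy hab

/-- A torus element of determinant one multiplying two orthogonal isotropic vectors. -/
theorem exists_torus {a b : ι → F} (haa : f a a = 0) (hbb : f b b = 0) (hab : f a b = 0)
    (hf : Cfsg.Geo.IsUnitaryForm σ f) (ha : a ≠ 0) (hb : b ∉ Submodule.span F {a}) {μ : F} (hμ : μ ≠ 0) :
    ∃ g : GL ι F, Iso f g ∧ g ∈ Cfsg.Geo.specialLinear ι F ∧ (g : Matrix ι ι F) *ᵥ a = μ • a ∧
      (g : Matrix ι ι F) *ᵥ b = μ⁻¹ • b := by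
  classical
  obtain ⟨d, hd, hd'⟩ := exists_orth_sep hf (U := Submodule.span F {b}) (x := a) fun hm => by
    obtain ⟨k, rfl⟩ := Submodule.mem_span_singleton.1 hm
    refine hb (Submodule.mem_span_singleton.2 ⟨k⁻¹, ?_⟩)
    rw [smul_smul, inv_mul_cancel₀ (fun e => ha (by rw [e, zero_smul])), one_smul]
  have hbd : f b d = 0 := hd b (Submodule.mem_span_singleton_self b)
  obtain ⟨r, hr⟩ := exists_isotropic_shift hf haa hd'
  have hne : f a (d + r • a) ≠ 0 := by
    rw [add_right hf, smul_right hf, haa, mul_zero, add_zero]; exact hd'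
  set a' := σ (f a (d + r • a))⁻¹ • (d + r • a) with ha'
  have hAa' : f a a' = 1 := by rw [ha', smul_right hf, hf.involutive, inv_mul_cancel₀ hne]
  have ha'a' : f a' a' = 0 := by rw [ha', hf.smul_left, smul_right hf, hr, mul_zero, mul_zero]
  have hba' : f b a' = 0 := by
    rw [ha', smul_right hf, show f b (d + r • a) = 0 by
      rw [add_right hf, smul_right hf, hbd, orth_comm hf hab, mul_zero, add_zero], mul_zero]
  obtain ⟨d2, hd2, hd2'⟩ := exists_orth_sep hf (U := Submodule.span F {a, a'}) (x := b) fun hm => by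
    obtain ⟨p, k, e⟩ := Submodule.mem_span_pair.1 hm
    have h1 := congrArg (fun z => f z a) e
    simp only [hf.add_left, hf.smul_left, haa, hf.herm a' a, hAa', map_one, orth_comm hf hab, mul_zero,
      mul_one, zero_add] at h1
    exact hb (Submodule.mem_span_singleton.2 ⟨p, by rw [← e, h1, zero_smul, add_zero]⟩)
  have had2 : f a d2 = 0 := hd2 a (Submodule.subset_span (by simp))
  have ha'd2 : f a' d2 = 0 := hd2 a' (Submodule.subset_span (by simp))
  obtain ⟨s, hs⟩ := exists_isotropic_shift hf hbb hd2'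
  have hne2 : f b (d2 + s • b) ≠ 0 := by
    rw [add_right hf, smul_right hf, hbb, mul_zero, add_zero]; exact hd2'
  set b' := σ (f b (d2 + s • b))⁻¹ • (d2 + s • b) with hb'
  have hBb' : f b b' = 1 := by rw [hb', smul_right hf, hf.involutive, inv_mul_cancel₀ hne2]
  have hb'b' : f b' b' = 0 := by rw [hb', hf.smul_left, smul_right hf, hs, mul_zero, mul_zero]
  have hab' : f a b' = 0 := by
    rw [hb', smul_right hf, show f a (d2 + s • b) = 0 by
      rw [add_right hf, smul_right hf, had2, hab, mul_zero, add_zero], mul_zero]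
  have ha'b : f a' b = 0 := orth_comm hf hba'
  have ha'b' : f a' b' = 0 := by
    rw [hb', smul_right hf, show f a' (d2 + s • b) = 0 by
      rw [add_right hf, smul_right hf, ha'd2, ha'b, mul_zero, add_zero], mul_zero]
  have hA'a : f a' a = 1 := by rw [hf.herm, hAa', map_one]
  have hB'b : f b' b = 1 := by rw [hf.herm, hBb', map_one]
  have hba := orth_comm hf hab
  have hb'a := orth_comm hf hab'
  have hb'a' := orth_comm hf ha'b'
  let v : Fin 4 → (ι → F) := ![a, a', b, b']
  have hli : LinearIndependent F v := by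
    rw [Fintype.linearIndependent_iff]
    intro c hc
    simp only [Fin.sum_univ_four, v, Matrix.cons_val_zero, Matrix.cons_val_one, Matrix.cons_val_two,
      Matrix.cons_val_three, Matrix.tail_cons, Matrix.head_cons] at hc
    have h0 := congrArg (fun z => f z a') hc
    have h1 := congrArg (fun z => f z a) hc
    have h2 := congrArg (fun z => f z b') hc
    have h3 := congrArg (fun z => f z b) hc
    simp only [hf.add_left, hf.smul_left, zero_left hf, haa, ha'a', hbb, hb'b', hAa', hA'a, hBb', hB'b, hab, hba,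
      hab', hb'a, ha'b, hba', ha'b', hb'a', mul_zero, mul_one, zero_add, add_zero] at h0 h1 h2 h3
    intro i
    fin_cases i <;> assumption
  let B : Module.Basis (Fin 4) F (ι → F) := basisOfLinearIndependentOfCardEqFinrank hli (by simp [hn])
  have hB : ∀ i, B i = v i := fun i => by simp [B]
  let m : Fin 4 → F := ![μ, (σ μ)⁻¹, μ⁻¹, σ μ]
  have hm0 : ∀ i, m i ≠ 0 := fun i => by fin_cases i <;> simp [m, hμ]
  let L := B.equiv (B.unitsSMul fun i => Units.mk0 (m i) (hm0 i)) (Equiv.refl _)
  let g : GL ι F := ofEquiv L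
  have hg : ∀ i, (g : Matrix ι ι F) *ᵥ v i = m i • v i := fun i => by
    rw [← hB, ofEquiv_mulVec]
    simp [L, Module.Basis.unitsSMul_apply]
  have hiso : Iso f g := by
    intro x y
    rw [← B.sum_repr x, ← B.sum_repr y]
    simp only [Fin.sum_univ_four, hB, mulVec_add, mulVec_smul, hg, smul_smul]
    simp only [v, m, Matrix.cons_val_zero, Matrix.cons_val_one, Matrix.cons_val_two, Matrix.cons_val_three,
      Matrix.tail_cons, Matrix.head_cons, hf.add_left, hf.smul_left, add_right hf, smul_right hf, haa, ha'a', hbb,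
      hb'b', hAa', hA'a, hBb', hB'b, hab, hba, hab', hb'a, ha'b, hba', ha'b', hb'a', mul_zero, mul_one, zero_add,
      add_zero, map_mul, map_inv₀, hf.involutive]
    have : σ μ ≠ 0 := by simpa using hμ
    field_simp
  have hdet : g ∈ Cfsg.Geo.specialLinear ι F := by
    refine Units.ext ?_
    show (g : Matrix ι ι F).det = 1
    rw [← LinearMap.det_toLin', ← LinearMap.det_toMatrix B]
    have hM : LinearMap.toMatrix B B (Matrix.toLin' (g : Matrix ι ι F)) = Matrix.diagonal m := by
      ext i j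
      rw [LinearMap.toMatrix_apply, Matrix.toLin'_apply, hB, hg, ← hB, map_smul, Module.Basis.repr_self]
      by_cases hij : i = j
      · subst hij; simp
      · simp [hij, Finsupp.single_eq_of_ne hij]
    have : σ μ ≠ 0 := by simpa using hμ
    rw [hM, Matrix.det_diagonal, Fin.prod_univ_four]
    simp [m]
    field_simp
  exact ⟨g, hiso, hdet, hg 0, hg 2⟩

/-- A centre with a new transvection may be taken anisotropic. -/
theorem exists_aniso_centre (hH : ∀ g, Iso f g → g ∈ Cfsg.Geo.specialLinear ι F → g ∈ M) {a b : ι → F}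
    (ha : a ≠ 0) (h : Mem hf M a b) (hb : b ∉ Submodule.span F {a}) :
    ∃ a₁ b₁, f a₁ a₁ ≠ 0 ∧ Mem hf M a₁ b₁ ∧ b₁ ∉ Submodule.span F {a₁} := by
  classical
  by_cases haa : f a a = 0
  swap
  · exact ⟨a, b, haa, h, hb⟩
  have hab : f a b = 0 := h.orth
  -- an anisotropic functional vector at the same centre
  obtain ⟨b₁, hbb₁, hm₁⟩ : ∃ b₁, f b₁ b₁ ≠ 0 ∧ Mem hf M a b₁ := by
    by_cases hbb : f b b = 0
    swap
    · exact ⟨b, hbb, h⟩
    obtain ⟨x, hx⟩ : ∃ x, σ x ≠ x := by
      by_contra hc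
      push Not at hc
      exact hf.ne_refl (RingEquiv.ext hc)
    obtain ⟨μ, hμ1, hμ2⟩ : ∃ μ, σ μ ≠ μ ∧ σ μ ≠ -μ := by
      by_cases h2 : σ x = -x
      · refine ⟨x + 1, fun e => hx ?_, fun e => ?_⟩
        · rw [map_add, map_one] at e; exact add_right_cancel e
        · rw [map_add, map_one, h2] at e
          have h20 : (2 : F) = 0 := by linear_combination e
          exact hx (by rw [h2]; linear_combination -x * h20)
      · exact ⟨x, hx, h2⟩
    have hμ0 : μ ≠ 0 := fun e => hμ1 (by rw [e, map_zero])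
    obtain ⟨g, hg, hgs, hga, hgb⟩ := exists_torus hn haa hbb hab hf ha hb hμ0
    have m1 := h.image (hH g hg hgs) hg
    rw [hga, hgb] at m1
    -- now a transvection moving the functional vector
    obtain ⟨d, hd, hd'⟩ := exists_orth_sep hf hb
    have had : f a d = 0 := hd a (Submodule.mem_span_singleton_self a)
    obtain ⟨r, hr⟩ := exists_isotropic_shift hf hbb hd'
    have hbz : f b (d + r • b) ≠ 0 := by
      rw [add_right hf, smul_right hf, hbb, mul_zero, add_zero]; exact hd'
    have haz : f a (d + r • b) = 0 := by rw [add_right hf, smul_right hf, had, hab, mul_zero, add_zero]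
    set z := d + r • b with hz
    obtain ⟨c, hc0, hc⟩ := exists_traceZero hf
    have m2 := h.image (hH _ (uT_iso hf hr hc) (uT_mem_specialLinear hf hr c)) (uT_iso hf hr hc)
    rw [uT_mulVec, uT_mulVec, haz, mul_zero, zero_smul, add_zero] at m2
    set ν := σ μ / μ with hν
    have m3 : Mem hf M a (ν • b) := by
      obtain ⟨h1, h2⟩ := m1
      refine ⟨by rw [upair_apply, smul_right hf, hab, mul_zero], ?_⟩
      convert h2 using 1
      refine transv_congr _ _ fun x => ?_
      rw [upair_apply, upair_apply, smul_right hf, smul_right hf, smul_smul, hν, map_div₀, hf.involutive,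
        map_inv₀]
      congr 1
      ring
    refine ⟨(ν • b + (b + (c * f b z) • z)) - b, ?_, (m3.add m2).sub h⟩
    have e : (ν • b + (b + (c * f b z) • z)) - b = ν • b + (c * f b z) • z := by module
    rw [e, norm_add_smul hf, hf.smul_left, hf.smul_left, smul_right hf, hbb, hr, smul_right hf, map_mul,
      ← hf.herm z b]
    intro e0
    have hσν : σ ν = μ / σ μ := by rw [hν, map_div₀, hf.involutive]
    rw [hσν, hν] at e0
    have hσμ : σ μ ≠ 0 := by simpa using hμ0
    have hzb : f z b ≠ 0 := fun e => hbz (orth_comm hf e)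
    have h1 : σ c * (f b z * f z b) * (σ μ / μ - μ / σ μ) = 0 := by
      linear_combination e0 - (μ / σ μ) * (f b z * f z b) * hc
    have hσc : σ c ≠ 0 := by simpa using hc0
    have h2 := (mul_eq_zero.1 h1).resolve_left (mul_ne_zero hσc (mul_ne_zero hbz hzb))
    rw [sub_eq_zero, div_eq_div_iff hμ0 hσμ] at h2
    rcases mul_self_eq_mul_self_iff.1 h2 with h3 | h3
    exacts [hμ1 h3, hμ2 h3]
  -- another isotropic centre orthogonal to it
  have hab₁ : f a b₁ = 0 := hm₁.orth
  obtain ⟨d, hd, hd'⟩ := exists_orth_sep hf (U := Submodule.span F {b₁}) (x := a) fun hm => by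
    obtain ⟨k, rfl⟩ := Submodule.mem_span_singleton.1 hm
    rw [hf.smul_left, mul_eq_zero] at hab₁
    exact ha (by rw [hab₁.resolve_right hbb₁, zero_smul])
  have hbd : f b₁ d = 0 := hd b₁ (Submodule.mem_span_singleton_self b₁)
  obtain ⟨r, hr⟩ := exists_isotropic_shift hf haa hd'
  have hne : f a (d + r • a) ≠ 0 := by
    rw [add_right hf, smul_right hf, haa, mul_zero, add_zero]; exact hd'
  obtain ⟨t, ht⟩ := exists_trace_one hf
  set a₂ := σ (t / f a (d + r • a)) • (d + r • a) with ha₂
  have h12 : f a a₂ = t := by rw [ha₂, smul_right hf, hf.involutive, div_mul_cancel₀ _ hne]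
  have h22 : f a₂ a₂ = 0 := by rw [ha₂, hf.smul_left, smul_right hf, hr, mul_zero, mul_zero]
  have hb2 : f b₁ a₂ = 0 := by
    rw [ha₂, smul_right hf, show f b₁ (d + r • a) = 0 by
      rw [add_right hf, smul_right hf, hbd, orth_comm hf hab₁, mul_zero, add_zero], mul_zero]
  have ha₂0 : a₂ ≠ 0 := fun e => by rw [e, zero_right hf] at h12; rw [← h12, map_zero, add_zero] at ht; exact zero_ne_one ht
  obtain ⟨l, hl⟩ := exists_norm hf (r := (f b₁ b₁)⁻¹) (by rw [map_inv₀, norm_fixed hf])
  obtain ⟨g, hg, hgs, hga, hgb⟩ : ∃ g : GL ι F, Iso f g ∧ g ∈ Cfsg.Geo.specialLinear ι F ∧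
      (g : Matrix ι ι F) *ᵥ a = a₂ ∧ (g : Matrix ι ι F) *ᵥ b₁ = b₁ := by
    let X := Submodule.span F ({a, b₁} : Set (ι → F))
    have hliab : LinearIndependent F ![a, b₁] := by
      rw [LinearIndependent.pair_iff]
      intro p k e
      have h1 := congrArg (fun z => f z b₁) e
      simp only [hf.add_left, hf.smul_left, hab₁, mul_zero, zero_add, zero_left hf] at h1
      rw [(mul_eq_zero.1 h1).resolve_right hbb₁, zero_smul, add_zero] at e
      exact ⟨(smul_eq_zero.1 e).resolve_right ha, (mul_eq_zero.1 h1).resolve_right hbb₁⟩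
    let B2 := (Module.Basis.span hliab)
    have hX : Submodule.span F (Set.range ![a, b₁]) = X := by simp [X, Set.pair_comm]
    let φ : Submodule.span F (Set.range ![a, b₁]) →ₗ[F] (ι → F) := B2.constr F ![a₂, b₁]
    have hB2 : ∀ i, ((B2 i : Submodule.span F (Set.range ![a, b₁])) : ι → F) = ![a, b₁] i := fun i => by
      simp [B2, Module.Basis.span_apply]
    have hφ : ∀ x : Submodule.span F (Set.range ![a, b₁]),
        φ x = B2.repr x 0 • a₂ + B2.repr x 1 • b₁ ∧ (x : ι → F) = B2.repr x 0 • a + B2.repr x 1 • b₁ := fun x => by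
      refine ⟨by rw [Module.Basis.constr_apply_fintype, Fin.sum_univ_two]; simp [Module.Basis.equivFun_apply], ?_⟩
      have := congrArg Subtype.val (B2.sum_repr x)
      rw [Fin.sum_univ_two] at this
      simpa [hB2] using this.symm
    have hinj : Function.Injective φ := by
      rw [injective_iff_map_eq_zero]
      intro x hx
      rw [(hφ x).1] at hx
      have h1 := congrArg (fun z => f z b₁) hx
      simp only [hf.add_left, hf.smul_left, orth_comm hf hb2, mul_zero, zero_add, zero_left hf] at h1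
      have k1 := (mul_eq_zero.1 h1).resolve_right hbb₁
      rw [k1, zero_smul, add_zero] at hx
      apply Subtype.ext
      rw [(hφ x).2, (smul_eq_zero.1 hx).resolve_right ha₂0, k1]
      simp
    obtain ⟨u, hu, huu⟩ : ∃ u, (∀ v ∈ ({a₂, b₁} : Finset (ι → F)), f u v = 0) ∧ f u u = 1 := by
      set w := σ (f a (d + r • a))⁻¹ • (d + r • a) with hw
      have hAw : f a w = 1 := by rw [hw, smul_right hf, hf.involutive, inv_mul_cancel₀ hne]
      have hww : f w w = 0 := by rw [hw, hf.smul_left, smul_right hf, hr, mul_zero, mul_zero]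
      have hwb : f w b₁ = 0 := by
        rw [hw, hf.smul_left, hf.add_left, hf.smul_left, orth_comm hf hbd, hab₁, mul_zero, add_zero, mul_zero]
      have hwA : f w a = 1 := by rw [hf.herm, hAw, map_one]
      obtain ⟨u, hu, huu⟩ := exists_unit_orth_gram hn hf {a, w, b₁} (Finset.card_le_three.trans_lt (by norm_num))
        (gram_three (hf := hf) haa hww hAw hwA hab₁ hwb hbb₁)
      refine ⟨u, fun v hv => ?_, huu⟩
      simp only [Finset.mem_insert, Finset.mem_singleton] at hv
      rcases hv with rfl | rfl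
      · have hA : a₂ = σ t • w := by rw [ha₂, hw, smul_smul, div_eq_mul_inv, map_mul]
        rw [hA, smul_right hf, hu w (by simp), mul_zero]
      · exact hu v (by simp)
    obtain ⟨g, hg, hgs, hgx⟩ := exists_iso_special hf _ φ hinj (fun p k => by
      rw [(hφ p).1, (hφ k).1, (hφ p).2, (hφ k).2]
      simp only [hf.add_left, hf.smul_left, add_right hf, smul_right hf, haa, h22, hab₁, orth_comm hf hab₁,
        orth_comm hf hb2, hb2]) huu (fun x => by
      rw [(hφ x).1, hf.add_left, hf.smul_left _ a₂, orth_comm hf (hu a₂ (by simp)), mul_zero,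
        hf.smul_left _ b₁, orth_comm hf (hu b₁ (by simp)), mul_zero, add_zero])
    refine ⟨g, hg, hgs, ?_, ?_⟩
    · have := hgx (B2 0)
      rw [hB2] at this
      simpa [φ] using this
    · have := hgx (B2 1)
      rw [hB2] at this
      simpa [φ] using this
  have m2 := hm₁.image (hH g hg hgs) hg
  rw [hga, hgb] at m2
  refine ⟨a + a₂, b₁, ?_, hm₁.add_left m2, fun hm => ?_⟩
  · rw [hf.add_left, add_right hf, add_right hf, haa, h22, h12, hf.herm a₂ a, h12, zero_add, add_zero, ht]
    exact one_ne_zero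
  · obtain ⟨k, hk⟩ := Submodule.mem_span_singleton.1 hm
    have h1 : f (k • (a + a₂)) b₁ = f b₁ b₁ := by rw [hk]
    rw [hf.smul_left, hf.add_left, hab₁, orth_comm hf hb2, add_zero, mul_zero] at h1
    exact hbb₁ h1.symm

/-- An element outside the similarity group gives a new transvection. -/
theorem exists_new_four (hU : ∀ v (hv : f v v = 0) c, c + σ c = 0 → uT hf hv c ∈ M) {g : GL ι F}
    (hgM : g ∈ M) (hg : g ∉ Cfsg.Geo.similarityGroup f) :
    ∃ a b, a ≠ 0 ∧ Mem hf M a b ∧ b ∉ Submodule.span F {a} := by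
  classical
  by_contra hno
  push Not at hno
  obtain ⟨c, hc0, hc⟩ := exists_traceZero hf
  have hv : ∀ v, f v v = 0 → ∃ μ : F, ∀ y,
      f y v = μ * f ((g : Matrix ι ι F) *ᵥ y) ((g : Matrix ι ι F) *ᵥ v) := by
    intro v hv
    by_cases hv0 : v = 0
    · exact ⟨0, fun y => by rw [hv0, zero_right hf, zero_mul]⟩
    obtain ⟨b, hb⟩ := exists_upair_eq hf
      ((c • upair hf v).comp (Matrix.toLin' ((g⁻¹ : GL ι F) : Matrix ι ι F)))
    have hbx : ∀ x, f x b = c * f (((g⁻¹ : GL ι F) : Matrix ι ι F) *ᵥ x) v := fun x => by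
      have := LinearMap.congr_fun hb x
      simpa using this
    have h1 : upair hf b ((g : Matrix ι ι F) *ᵥ v) = 0 := by
      rw [upair_apply, hbx, inv_mulVec_mulVec, hv, mul_zero]
    have hmem : Mem hf M ((g : Matrix ι ι F) *ᵥ v) b := by
      refine ⟨h1, ?_⟩
      rw [← conj_transv g (φ := c • upair hf v) (v := v) (by simp [hv]) h1 rfl (fun x => by
        rw [upair_apply, hbx, inv_mulVec_mulVec]; rfl)]
      exact M.mul_mem (M.mul_mem hgM (hU v hv c hc)) (M.inv_mem hgM)
    obtain ⟨k, hk⟩ := Submodule.mem_span_singleton.1 (hno _ _ (fun e => hv0 (by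
      rw [← inv_mulVec_mulVec g v, e, mulVec_zero])) hmem)
    refine ⟨σ k / c, fun y => ?_⟩
    have h2 := hbx ((g : Matrix ι ι F) *ᵥ y)
    rw [inv_mulVec_mulVec, ← hk, smul_right hf] at h2
    field_simp
    linear_combination -h2
  choose μ hμ using hv
  have swap : ∀ v w (hv : f v v = 0) (hw : f w w = 0), f v w ≠ 0 → μ w hw = σ (μ v hv) := by
    intro v w hv hw hvw
    have h1 := congrArg σ (hμ v hv w)
    rw [map_mul, ← hf.herm, ← hf.herm, hμ w hw v] at h1
    refine mul_right_cancel₀ ?_ h1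
    intro e
    rw [hμ w hw v, e, mul_zero] at hvw
    exact hvw rfl
  have same : ∀ v w (hv : f v v = 0) (hw : f w w = 0), v ≠ 0 → w ≠ 0 → μ w hw = μ v hv := by
    intro v w hv hw hv0 hw0
    obtain ⟨e, he, hev, hew⟩ := exists_isotropic_nonorth hn hf hv0 hw0
    rw [swap e w he hw hew, swap e v he hv hev]
  obtain ⟨e, e', -, -, hee, he'e', hee'⟩ := exists_hyperbolic_orth hf ∅ (by simp [hn])
  have hne : f e e' ≠ 0 := by rw [hee']; exact one_ne_zero
  have he0 : e ≠ 0 := fun h => hne (by rw [h, zero_left hf])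
  have hμ0 : μ e hee ≠ 0 := fun h => by
    have := hμ e hee e'
    rw [h, zero_mul, hf.herm, hee', map_one] at this
    exact one_ne_zero this
  have hall : ∀ v, f v v = 0 → ∀ y,
      f y v = μ e hee * f ((g : Matrix ι ι F) *ᵥ y) ((g : Matrix ι ι F) *ᵥ v) := by
    intro v hv y
    by_cases hv0 : v = 0
    · simp [hv0, zero_right hf]
    · rw [← same e v hee hv he0 hv0]; exact hμ v hv y
  refine hg ⟨Units.mk0 _ (inv_ne_zero hμ0), fun y x => ?_⟩
  rw [Units.val_mk0]
  have key : f y x = μ e hee * f ((g : Matrix ι ι F) *ᵥ y) ((g : Matrix ι ι F) *ᵥ x) := by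
    by_cases hx0 : x = 0
    · simp [hx0, zero_right hf]
    obtain ⟨z, hz, hzx, -⟩ := exists_isotropic_nonorth hn hf hx0 hx0
    obtain ⟨t, ht⟩ := exists_isotropic_shift hf hz hzx
    have h1 := hall _ ht y
    have h2 := hall z hz y
    rw [mulVec_add, mulVec_smul, add_right hf, add_right hf, smul_right hf, smul_right hf, h2] at h1
    linear_combination h1
  rw [key, inv_mul_cancel_left₀ hμ0]

end Generate

end

open CfsgLib.SLGeo91.UnitSim in
theorem isMaximal {F : Type*} [Field F] [Fintype F] (n : ℕ) (hn : n = 4) (σ : F ≃+* F) (f : (Fin n → F) → (Fin n → F) → F) (hf : Cfsg.Geo.IsUnitaryForm σ f) : Cfsg.Geo.IsMaximalIn (Cfsg.Geo.specialLinear (Fin n) F) (Cfsg.Geo.similarityGroup f ⊓ Cfsg.Geo.specialLinear (Fin n) F) := by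
  classical
  have hcard : Fintype.card (Fin n) = 4 := by rw [Fintype.card_fin]; exact hn
  have hsim : ∀ g, CfsgLib.UnitCentres.Iso f g → g ∈ Geo.similarityGroup f :=
    fun g hg => ⟨1, fun x y => by rw [hg x y, Units.val_one, one_mul]⟩
  refine ⟨lt_of_le_not_ge inf_le_right fun h => ?_, fun M hHM hMK => ?_⟩
  · obtain ⟨e, e', -, -, hee, he'e', hee'⟩ :=
      CfsgLib.UnitCentres.exists_hyperbolic_orth hf ∅ (by simp [hn])
    obtain ⟨u, hu, huu⟩ := exists_unit_orth_gram hcard hf {e, e'}
      (Finset.card_le_two.trans_lt (by norm_num)) (gram_two (hf := hf) hee he'e' hee')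
    have h0 : CfsgLib.UnitCentres.upair hf u e = 0 :=
      CfsgLib.UnitCentres.orth_comm hf (hu e (by simp))
    obtain ⟨c, hc⟩ := (h (CfsgLib.TransvGL.transv_mem_specialLinear h0)).1
    have h1 := hc u e'
    rw [CfsgLib.TransvGL.transv_mulVec, CfsgLib.TransvGL.transv_mulVec,
      CfsgLib.UnitCentres.upair_apply, CfsgLib.UnitCentres.upair_apply, huu,
      CfsgLib.UnitCentres.orth_comm hf (hu e' (by simp)), hf.add_left, hf.smul_left, zero_smul,
      add_zero, hu e' (by simp), hee', mul_zero] at h1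
    simp at h1
  · by_cases hle : M ≤ Geo.similarityGroup f ⊓ Geo.specialLinear (Fin n) F
    · exact Or.inl (le_antisymm hle hHM)
    obtain ⟨g, hgM, hgH⟩ := SetLike.not_le_iff_exists.1 hle
    refine Or.inr (le_antisymm hMK (CfsgLib.TransvGL.specialLinear_le_of_transv_mem M ?_))
    have hH : ∀ k, CfsgLib.UnitCentres.Iso f k → k ∈ Geo.specialLinear (Fin n) F → k ∈ M :=
      fun k hk hks => hHM ⟨hsim k hk, hks⟩
    have hU : ∀ v (hv : f v v = 0) c, c + σ c = 0 → CfsgLib.UnitCentres.uT hf hv c ∈ M :=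
      fun v hv c hc => hH _ (CfsgLib.UnitCentres.uT_iso hf hv hc)
        (CfsgLib.UnitCentres.uT_mem_specialLinear hf hv c)
    obtain ⟨a₀, b₀, ha₀, hab₀, hb₀⟩ := exists_new_four (hf := hf) hcard hU hgM fun hs => hgH ⟨hs, hMK hgM⟩
    obtain ⟨a, b, haa, hab, hb⟩ := exists_aniso_centre hcard hH ha₀ hab₀ hb₀
    have hfull := full_of_mem_four hcard hU haa hab hb
    intro φ v hφ
    obtain ⟨b', rfl⟩ := CfsgLib.UnitCentres.exists_upair_eq hf φ
    exact (all_mem_four hcard hH haa hfull (a' := v) (b := b') hφ).2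

end CfsgLib.SLFour90.UnitFour
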